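import Cfsg.Agent.H97.MoFin

/-! A faithful module of dimension at most 4370 over the field with two elements for the Baby
Monster. -/

set_option autoImplicit false

namespace Cfsg.Agent.H70.BM

open Cfsg Module Matrix

theorem exists_GL_le {F K U : Type*} [Field F] [Group K] [AddCommGroup U] [Module F U]
    [FiniteDimensional F U] {n : ℕ} (hn : finrank F U ≤ n) (ρ : K →* (U ≃ₗ[F] U))
    (hρ : Function.Injective ρ) : ∃ H : Subgroup (GL (Fin n) F), Nonempty (K ≃* H) := by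
  let V := U × (Fin (n - finrank F U) → F)
  have hV : finrank F V = n := by
    rw [finrank_prod, finrank_fin_fun]; omega
  let σ : K →* (V ≃ₗ[F] V) :=
    MonoidHom.mk' (fun g => (ρ g).prodCongr (LinearEquiv.refl F _)) fun g h => by
      rw [map_mul]; rfl
  have hσ : Function.Injective σ := fun g h e => hρ (LinearEquiv.ext fun u =>
    congrArg Prod.fst (LinearEquiv.congr_fun e (u, 0)))
  let b := finBasisOfFinrankEq F V hV
  let e := ((Matrix.GeneralLinearGroup.toLin' b).trans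
    (LinearMap.GeneralLinearGroup.generalLinearEquiv F V)).symm
  exact ⟨_, ⟨MonoidHom.ofInjective (f := e.toMonoidHom.comp σ) (e.injective.comp hσ)⟩⟩

theorem even_of_det {k : ℕ} (N : Matrix (Fin k) (Fin k) ℤ) (hs : ∀ i j, N i j = N j i)
    (hd : ∀ i, (N i i : ZMod 2) = 0) (h : ((Int.castRingHom (ZMod 2)).mapMatrix N).det ≠ 0) :
    Even k := by
  let A : Matrix (Fin k) (Fin k) ℤ :=
    Matrix.of fun i j => if i < j then N i j else if j < i then -N i j else 0
  have h1 : (Int.castRingHom (ZMod 2)).mapMatrix A = (Int.castRingHom (ZMod 2)).mapMatrix N := by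
    ext i j
    simp only [A, RingHom.mapMatrix_apply, Matrix.map_apply, Matrix.of_apply, eq_intCast]
    split_ifs with a b
    · rfl
    · rw [Int.cast_neg, ZMod.neg_eq_self_mod_two]
    · obtain rfl : i = j := le_antisymm (not_lt.1 b) (not_lt.1 a)
      rw [hd, Int.cast_zero]
  have h2 : Aᵀ = -A := by
    ext i j
    simp only [A, Matrix.transpose_apply, Matrix.neg_apply, Matrix.of_apply]
    rcases lt_trichotomy i j with a | rfl | a
    · rw [if_neg a.not_gt, if_pos a, if_pos a, hs]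
    · simp
    · rw [if_pos a, if_neg a.not_gt, if_pos a, neg_neg, hs]
  have h3 := Matrix.det_transpose A
  rw [h2, Matrix.det_neg, Fintype.card_fin] at h3
  rw [← h1, ← RingHom.map_det] at h
  by_contra ho
  rw [(Nat.not_even_iff_odd.1 ho).neg_one_pow] at h3
  exact h (by rw [show A.det = 0 by omega, map_zero])

theorem rank_le {X W : Type*} [Finite X] [AddCommGroup W] [Module ℝ W] [FiniteDimensional ℝ W]
    (G : X → X → ℤ) (hs : ∀ w y, G w y = G y w) (hd : ∀ y, (G y y : ZMod 2) = 0) (u : X → W)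
    (B : LinearMap.BilinForm ℝ W) (hG : ∀ w y, (G w y : ℝ) = B (u w) (u y)) {n : ℕ} (hn : Even n)
    (hW : finrank ℝ W ≤ n + 1) :
    finrank (ZMod 2) (Submodule.span (ZMod 2) (Set.range fun y w => (G y w : ZMod 2))) ≤ n := by
  obtain ⟨f, h1, h2, h3⟩ := Submodule.exists_fun_fin_finrank_span_eq (ZMod 2)
    (Set.range fun y w => (G y w : ZMod 2))
  generalize finrank (ZMod 2) (Submodule.span (ZMod 2) (Set.range fun y w => (G y w : ZMod 2))) = k
    at f h1 h2 h3
  choose y hy using h1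
  obtain rfl : (fun i w => (G (y i) w : ZMod 2)) = f := funext hy
  let N : Matrix (Fin k) (Fin k) ℤ := Matrix.of fun i j => G (y i) (y j)
  have d2 : ((Int.castRingHom (ZMod 2)).mapMatrix N).det ≠ 0 := fun e => by
    obtain ⟨c, hc, e⟩ := Matrix.exists_vecMul_eq_zero_iff.2 e
    refine hc (funext (Fintype.linearIndependent_iff.1 h3 c (funext fun w => ?_)))
    have m : (fun v => (G w v : ZMod 2)) ∈ Submodule.span (ZMod 2)
        (Set.range fun i w => (G (y i) w : ZMod 2)) := h2 ▸ Submodule.subset_span ⟨w, rfl⟩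
    obtain ⟨d, hd'⟩ := (Submodule.mem_span_range_iff_exists_fun _).1 m
    have e1 : ∀ i, (G (y i) w : ZMod 2) = ∑ j, d j * (G (y i) (y j) : ZMod 2) := fun i => by
      have := congrFun hd' (y i)
      simp only [Finset.sum_apply, Pi.smul_apply, smul_eq_mul] at this
      rw [hs, ← this]
      exact Finset.sum_congr rfl fun j _ => by rw [hs]
    have e2 : ∀ j, ∑ i, c i * (G (y i) (y j) : ZMod 2) = 0 := fun j => congrFun e j
    simp only [Finset.sum_apply, Pi.smul_apply, smul_eq_mul, Pi.zero_apply, e1, Finset.mul_sum]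
    rw [Finset.sum_comm]
    refine Finset.sum_eq_zero fun j _ => ?_
    rw [← mul_zero (d j), ← e2 j, Finset.mul_sum]
    exact Finset.sum_congr rfl fun i _ => by ring
  have dR : ((Int.castRingHom ℝ).mapMatrix N).det ≠ 0 := fun e => d2 (by
    rw [← RingHom.map_det] at e ⊢
    rw [(Int.cast_eq_zero.1 e : N.det = 0), map_zero])
  have li : LinearIndependent ℝ fun i => u (y i) := Fintype.linearIndependent_iff.2 fun c hc => by
    by_contra hn
    refine dR (Matrix.exists_vecMul_eq_zero_iff.1 ⟨c, fun e => hn (congrFun e), funext fun j => ?_⟩)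
    have := congrArg (fun v => B v (u (y j))) hc
    simp only [map_sum, map_smul, LinearMap.sum_apply, LinearMap.smul_apply, smul_eq_mul, map_zero,
      LinearMap.zero_apply, ← hG] at this
    exact this
  have h4 := li.fintype_card_le_finrank
  rw [Fintype.card_fin] at h4
  obtain ⟨a, ha⟩ := even_of_det N (fun i j => hs _ _) (fun i => hd _) d2
  obtain ⟨b, hb⟩ := hn
  omega

theorem exists_rep {K X W : Type*} [Group K] [IsSimpleGroup K] [Finite X] [AddCommGroup W]
    [Module ℝ W] [FiniteDimensional ℝ W] (φ : K →* Equiv.Perm X) (G : X → X → ℤ)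
    (hs : ∀ w y, G w y = G y w) (hd : ∀ y, (G y y : ZMod 2) = 0)
    (hi : ∀ g w y, G (φ g w) (φ g y) = G w y) (hx : ∃ g y, (G (φ g y) y : ZMod 2) ≠ 0) (u : X → W)
    (B : LinearMap.BilinForm ℝ W) (hG : ∀ w y, (G w y : ℝ) = B (u w) (u y)) {n : ℕ} (hn : Even n)
    (hW : finrank ℝ W ≤ n + 1) : ∃ H : Subgroup (GL (Fin n) (ZMod 2)), Nonempty (K ≃* H) := by
  have : Fact (Nat.Prime 2) := ⟨Nat.prime_two⟩
  let U := Submodule.span (ZMod 2) (Set.range fun y w => (G y w : ZMod 2))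
  let L : K → (X → ZMod 2) →ₗ[ZMod 2] X → ZMod 2 := fun g => LinearMap.funLeft _ _ (φ g⁻¹)
  have hL : ∀ g y, L g (fun w => (G y w : ZMod 2)) = fun w => (G (φ g y) w : ZMod 2) := by
    intro g y
    funext w
    change (G y (φ g⁻¹ w) : ZMod 2) = _
    rw [← hi g, ← Equiv.Perm.mul_apply (φ g) (φ g⁻¹), ← map_mul, mul_inv_cancel, map_one]
    rfl
  have mem : ∀ g, ∀ v ∈ U, L g v ∈ U := fun g v hv => by
    have : U ≤ U.comap (L g) := Submodule.span_le.2 (by
      rintro _ ⟨y, rfl⟩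
      exact Submodule.subset_span ⟨φ g y, (hL g y).symm⟩)
    exact this hv
  let r : K →* Module.End (ZMod 2) U :=
    { toFun g := (L g).restrict (mem g)
      map_one' := LinearMap.ext fun v => Subtype.ext (funext fun w => by
        change v.1 (φ 1⁻¹ w) = v.1 w
        rw [inv_one, map_one]; rfl)
      map_mul' g h := LinearMap.ext fun v => Subtype.ext (funext fun w => by
        change v.1 (φ (g * h)⁻¹ w) = v.1 (φ h⁻¹ (φ g⁻¹ w))
        rw [_root_.mul_inv_rev, map_mul]; rfl) }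
  let ρ := (LinearMap.GeneralLinearGroup.generalLinearEquiv (ZMod 2) U).toMonoidHom.comp r.toHomUnits
  refine exists_GL_le (rank_le G hs hd u B hG hn hW) ρ ((MonoidHom.ker_eq_bot_iff ρ).1
    ((IsSimpleGroup.eq_bot_or_eq_top_of_normal _ inferInstance).resolve_right fun e => ?_))
  obtain ⟨g, y, hg⟩ := hx
  have h1 : ρ g = 1 := (e ▸ Subgroup.mem_top g : g ∈ ρ.ker)
  have h2 : L g (fun w => (G y w : ZMod 2)) = fun w => (G y w : ZMod 2) :=
    congrArg Subtype.val (LinearEquiv.congr_fun h1 ⟨_, Submodule.subset_span ⟨y, rfl⟩⟩)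
  rw [hL] at h2
  exact hg ((congrFun h2 y).trans (hd y))

open Cfsg.Agent.H97.Mj

section
variable {V : Type*} [AddCommGroup V] [Module ℝ V] {mul : V →ₗ[ℝ] V →ₗ[ℝ] V}
  {B : LinearMap.BilinForm ℝ V}

/-- the `1/4`-eigenspace -/
noncomputable def E4 (mul : V →ₗ[ℝ] V →ₗ[ℝ] V) (a : V) : Submodule ℝ V :=
  LinearMap.ker (mul a - (1 / 4 : ℝ) • LinearMap.id)

theorem mem_E4 {a v : V} : v ∈ E4 mul a ↔ mul a v = (1 / 4 : ℝ) • v := by
  simp [E4, sub_eq_zero]

theorem isProj_p4 (hV : Amb mul B) {t : V ≃ₗ[ℝ] V} {a : V} (h : Ax mul B t a) :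
    LinearMap.IsProj (E4 mul a) (p4 mul B t a) := by
  have o : ∀ {c : ℝ} {w : V}, 1 ≠ c → mul a w = c • w → B a w = 0 := fun hc hw =>
    hV.orth hc (by rw [h.idem, one_smul]) hw
  refine ⟨fun v => ?_, fun v hv => ?_⟩
  · obtain ⟨l, x, y, z, rfl, hx, hy, hz, tx, ty, tz⟩ := h.decomp v
    have : p4 mul B t a (l • a + x + y + z) = y := by
      rw [p4_apply]
      simp only [map_add, map_smul, map_neg, h.ta, tx, ty, tz, h.idem, hx, hy, hz, h.norm,
        o (c := 0) one_ne_zero (by rw [hx, zero_smul]), o (by norm_num) hy, o (by norm_num) hz]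
      module
    rw [this]
    exact mem_E4.2 hy
  · have hv' := mem_E4.1 hv
    rw [p4_apply, h.fix_of_eigen (by norm_num) hv', o (by norm_num) hv', map_add, hv']
    module

variable {G : Type*} [Group G] {π : G →* (V ≃ₗ[ℝ] V)} {D Z : Set G} {a : G → V} {e : V}

theorem finrank_E4 (h : MRep mul B π D a) (m : MMod mul B π D a e) {x : G} (hx : x ∈ D) :
    FiniteDimensional ℝ (E4 mul (a x)) ∧ finrank ℝ (E4 mul (a x)) = 4371 := by
  have : FiniteDimensional ℝ V := Module.finite_of_finrank_pos (by rw [m.dim]; norm_num)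
  have := (isProj_p4 h.amb (h.ax x hx)).trace
  rw [m.tr4 x hx] at this
  exact ⟨inferInstance, by exact_mod_cast this.symm⟩

theorem B_u (h : MLoc mul B π D Z a) {x w y : G} (hx : x ∈ D) (w1 : w ∈ D) (w2 : x * w ∈ D)
    (y1 : y ∈ D) (y2 : x * y ∈ D) :
    B (a w - a (x * w)) (a y - a (x * y)) = 2 * (B (a w) (a y) - B (a w) (a (x * y))) := by
  have h1 := h.amb.orth (c := 0) (by norm_num) ((h.v0 hx w1 w2).trans (zero_smul _ _).symm)
    (h.v4 hx y1 y2)
  have h2 := h.amb.orth (c := 1) (by norm_num) ((h.ax x hx).idem.trans (one_smul _ _).symm)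
    (h.v4 hx y1 y2)
  simp only [map_add, map_sub, map_smul, LinearMap.add_apply, LinearMap.sub_apply,
    LinearMap.smul_apply, smul_eq_mul] at h1 h2 ⊢
  linarith

theorem exists_int (h : MLoc mul B π D Z a) {x w y : G} (hx : x ∈ D) (w1 : w ∈ D) (w2 : x * w ∈ D)
    (y1 : y ∈ D) (y2 : x * y ∈ D) :
    ∃ m : ℤ, (m : ℝ) = 16 * B (a w - a (x * w)) (a y - a (x * y)) ∧ (y = w → m = 28) ∧
      (B (a w) (a y) = 5 / 256 → m = -1) := by
  have h1 := h.self w1
  rw [B_u h hx w1 w2 y1 y2]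
  rcases h.five' hx w1 y1 w2 y2 rfl rfl rfl rfl with t | t | t | t | t | t | t | t
  on_goal 1 => refine ⟨28, ?_, fun _ => rfl, fun e => ?_⟩
  on_goal 3 => refine ⟨-28, ?_, fun e => ?_, fun e => ?_⟩
  on_goal 6 => refine ⟨4, ?_, fun e => ?_, fun e => ?_⟩
  on_goal 9 => refine ⟨-4, ?_, fun e => ?_, fun e => ?_⟩
  on_goal 12 => refine ⟨0, ?_, fun e => ?_, fun e => ?_⟩
  on_goal 15 => refine ⟨1, ?_, fun e => ?_, fun e => ?_⟩
  on_goal 18 => refine ⟨-1, ?_, fun e => ?_, fun _ => rfl⟩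
  on_goal 20 => refine ⟨0, ?_, fun e => ?_, fun e => ?_⟩
  all_goals first
    | (exfalso; linarith [t.2.1])
    | (exfalso; rw [← e] at h1; nth_rewrite 1 [e] at h1; linarith [t.2.1])
    | (rw [t.2.1, t.2.2.1]; norm_num)

open Subgroup in
theorem exists_of_loc [Finite G] (h : MLoc mul B π D Z a) (m : MMod mul B π D a e) {x : G}
    (hx : x ∈ D) [((zpowers x).subgroupOf (centralizer {x})).Normal]
    [IsSimpleGroup (centralizer ({x} : Set G) ⧸ (zpowers x).subgroupOf (centralizer {x}))]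
    {g y : G} (hg : g * x = x * g) (y1 : y ∈ D) (y2 : x * y ∈ D)
    (hy : B (a (g * y * g⁻¹)) (a y) = 5 / 256) : ∃ H : Subgroup (GL (Fin 4370) (ZMod 2)),
      Nonempty ((centralizer ({x} : Set G) ⧸ (zpowers x).subgroupOf (centralizer {x})) ≃* H) := by
  let X := {y // y ∈ D ∧ x * y ∈ D}
  have cm : ∀ g : centralizer ({x} : Set G), ∀ y : G,
      g.1 * (x * y) * g.1⁻¹ = x * (g.1 * y * g.1⁻¹) := fun g y =>
    H97.Gr.conj_aux (mem_centralizer_singleton_iff.1 g.2)
  let _ : MulAction (centralizer ({x} : Set G)) X :=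
    { smul g y := ⟨_, h.conj g.1 _ y.2.1, cm g y ▸ h.conj g.1 _ y.2.2⟩
      one_smul y := Subtype.ext (by change 1 * y.1 * 1⁻¹ = y.1; group)
      mul_smul g h y := Subtype.ext (by
        change g.1 * h.1 * y.1 * (g.1 * h.1)⁻¹ = g.1 * (h.1 * y.1 * h.1⁻¹) * g.1⁻¹; group) }
  let φ := QuotientGroup.lift ((zpowers x).subgroupOf (centralizer {x}))
    (MulAction.toPermHom (centralizer ({x} : Set G)) X) fun g hg => by
    refine Equiv.ext fun y => Subtype.ext ?_
    change g.1 * y.1 * g.1⁻¹ = y.1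
    rcases (H49.mem_zpowers_invol (h.sq hx)).1 (mem_subgroupOf.1 hg) with e | e <;> rw [e]
    · group
    · rw [h.comm hx y.2.1 y.2.2, mul_inv_cancel_right]
  have hφ : ∀ (g : centralizer ({x} : Set G)) (y : X),
      (φ (QuotientGroup.mk g) y).1 = g.1 * y.1 * g.1⁻¹ := fun _ _ => rfl
  choose N g1 g2 g3 using fun w y : X => exists_int h hx w.2.1 w.2.2 y.2.1 y.2.2
  obtain ⟨_, hd⟩ := finrank_E4 h.toMRep m hx
  refine exists_rep φ N (fun w y => ?_) (fun y => ?_) (fun g w y => ?_) ?_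
    (fun y => (⟨_, mem_E4.2 (h.v4 hx y.2.1 y.2.2)⟩ : E4 mul (a x)))
    ((16 : ℝ) • B.restrict _) g1 (by decide) hd.le
  · refine Int.cast_injective (α := ℝ) ?_
    rw [g1, g1, h.amb.2.1]
  · rw [g2 y y rfl]; decide
  · obtain ⟨g, rfl⟩ := QuotientGroup.mk_surjective g
    refine Int.cast_injective (α := ℝ) ?_
    rw [g1, g1, hφ, hφ, ← cm, ← cm, h.act _ _ w.2.1, h.act _ _ w.2.2, h.act _ _ y.2.1,
      h.act _ _ y.2.2, ← map_sub, ← map_sub, h.pB]
  · refine ⟨QuotientGroup.mk ⟨g, mem_centralizer_singleton_iff.2 hg⟩, ⟨y, y1, y2⟩, ?_⟩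
    rw [g3 _ _ hy]
    decide

end

open Cfsg.Agent.H97.Gr in
theorem exists_B : ∃ H : Subgroup (GL (Fin 4370) (ZMod 2)), Nonempty (BB ≃* H) := by
  have := isB_BB.1
  obtain ⟨w, hw⟩ := nb_ne tU tU_mem
  obtain ⟨y, hy0⟩ := Finset.card_pos.1 ((mloc.baby meq_real tU_mem hw).2.2.2.1 ▸
    (by norm_num : 0 < 2370830336))
  obtain ⟨hy, e⟩ := Finset.mem_filter.1 hy0
  obtain ⟨g, c, rfl⟩ := trans_nb tU_mem (mem_nb.1 hy).1 (mem_nb.1 hw).1 (mem_nb.1 hy).2
    (mem_nb.1 hw).2
  exact exists_of_loc mloc mmod tU_mem c (mem_nb.1 hy).1 (mem_nb.1 hy).2 e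

end Cfsg.Agent.H70.BM
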