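import Cfsg.Agent.H76.K0Defs
import Cfsg.Agent.S5008
import Cfsg.Agent.S0140

/-! Project K0: two characters of height zero. -/

set_option autoImplicit false

namespace Cfsg.Agent.H70.K0Fw2

open Cfsg Cfsg.Agent.H76.K0

universe u

theorem integ {G : Type u} [Group G] [Finite G] (χ : IrrCharacter G) (g : G) :
    IsIntegral ℤ ((χ : G → ℂ) g) := by
  obtain ⟨n, ρ, -, e⟩ := χ.2
  rw [← e]
  exact S0140.result ρ g

theorem fw2 (r0 : R0Stmt.{u}) (duo : DuoStmt.{u}) : Fw2Stmt.{u} := by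
  intro G _ _ p _ M hM P h2
  have pp : p.Prime := Fact.out
  obtain ⟨r1, r2, r3, r4⟩ := r0 G p M hM P
  have hd : p ∣ Nat.card P := by
    by_contra k
    rw [r4 k] at h2
    omega
  have one : IsIrrCharacter G (fun _ => (1 : ℂ)) := H11.isIrrCharacter_one
  have m1 : (⟨_, one⟩ : IrrCharacter G) ∈ principalBlock M G := fun g => by
    simpa using ⟨0, 1, M.zero_mem, fun h => hM.2.1.ne_top ((Ideal.eq_top_iff_one M).2 h), by simp⟩
  have d1 : charDegree (fun _ : G => (1 : ℂ)) = 1 := by simp [charDegree]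
  let o : Ht0 p M G := ⟨⟨_, one⟩, m1, by rw [d1]; exact pp.one_lt.ne' ∘ Nat.dvd_one.1⟩
  obtain ⟨χ, hne, hu⟩ := (Nat.card_eq_two_iff' o).1 h2
  have fs : ∀ {A : Type} [AddCommMonoid A] (f : Ht0 p M G → A), ∑ᶠ x, f x = f o + f χ := by
    intro A _ f
    rw [← finsum_mem_univ, show (Set.univ : Set (Ht0 p M G)) = {o, χ} from ?_,
      finsum_mem_pair hne.symm]
    ext y
    by_cases e : y = o
    · simp [e]
    · simp [hu y e]
  set d := charDegree (χ.1 : G → ℂ) with hdd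
  have c1 : (χ.1 : G → ℂ) ≠ fun _ => 1 := fun e => hne (Subtype.ext (Subtype.ext e))
  have s2 : p ∣ 1 + d ^ 2 := by simpa [fs, o, d1] using r2 hd
  have s3 : p ^ 2 ∣ Nat.card P → p ^ 2 ∣ 1 + d ^ 2 := fun k => by simpa [fs, o, d1] using r3 k
  obtain ⟨a, ha0, hap, t, ht⟩ : ∃ a : ℕ, 0 < a ∧ a < p ∧ ∃ t : ℤ, (1 : ℤ) = a * d + p * t := by
    obtain ⟨a, ha, e⟩ := Nat.exists_mul_mod_eq_one_of_coprime
      ((Nat.Prime.coprime_iff_not_dvd pp).2 χ.2.2).symm pp.one_lt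
    refine ⟨a, Nat.pos_of_ne_zero fun k => by simp [k] at e, ha, -((d * a / p : ℕ) : ℤ), ?_⟩
    have := Nat.div_add_mod (d * a) p
    rw [e] at this
    have : (p : ℤ) * ((d * a / p : ℕ) : ℤ) + 1 = d * a := by exact_mod_cast this
    linarith
  have p0 : (p : ℂ) ≠ 0 := by exact_mod_cast pp.ne_zero
  obtain ⟨i1, i2⟩ := duo G χ.1 c1 p pp.pos a 1 fun g => by
    obtain ⟨α, hα, e⟩ := r1 hd g
    rw [fs] at e
    simp only [o, d1] at e
    have ht' : (1 : ℂ) = a * d + p * t := by exact_mod_cast ht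
    have : (((a : ℤ) : ℂ) + ((1 : ℤ) : ℂ) * (χ.1 : G → ℂ) g) / p =
        (a : ℤ) * α + (t : ℤ) * (χ.1 : G → ℂ) g := by
      rw [div_eq_iff p0]
      push_cast at e ⊢
      linear_combination a * e + (χ.1 : G → ℂ) g * ht'
    rw [this]
    exact (isIntegral_algebraMap.mul hα).add (isIntegral_algebraMap.mul (integ χ.1 g))
  have p2 : p = 2 ∧ a = 1 := by
    have h1 : (p : ℤ) ≥ a + 1 := by exact_mod_cast hap
    have h0 : (a : ℤ) ≥ 1 := by exact_mod_cast ha0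
    have ha : (a : ℤ) = 1 := by nlinarith
    have := pp.two_le
    rw [ha] at i1
    omega
  obtain ⟨rfl, rfl⟩ := p2
  have dd : d = 1 := by
    have := i2 (by norm_num)
    rw [← hdd] at this
    omega
  obtain ⟨j, hj⟩ := IsPGroup.iff_card.1 P.2
  rw [dd] at s3
  rw [hj] at hd s3 ⊢
  rcases j with _ | _ | j
  · simp at hd
  · rfl
  · exact absurd (s3 (pow_dvd_pow 2 (by omega))) (by norm_num)

end Cfsg.Agent.H70.K0Fw2
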