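import Cfsg.Agent.H47.MjA5

/-! Uniqueness of the invariant trilinear form on the Griess module: the abstract part. -/

set_option autoImplicit false

namespace Cfsg.Agent.H70.Nor

open Cfsg.Agent.H97.Mj

variable {V : Type*} [AddCommGroup V] [Module ℝ V] {G : Type*} [Group G]
  {mul : V →ₗ[ℝ] V →ₗ[ℝ] V} {B : LinearMap.BilinForm ℝ V} {π : G →* (V ≃ₗ[ℝ] V)}
  {D Z : Set G} {a : G → V} {e : V} {x0 z0 : G}

theorem nondeg (hV : Amb mul B) : B.Nondegenerate :=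
  ⟨fun u h => hV.eq_zero (h u), fun u h => hV.eq_zero (h u)⟩

/-- the local data used -/
structure Ex (mul : V →ₗ[ℝ] V →ₗ[ℝ] V) (B : LinearMap.BilinForm ℝ V)
    (π : G →* (V ≃ₗ[ℝ] V)) (D Z : Set G) (a : G → V) (e : V) (x0 z0 : G) : Prop where
  loc : MLoc mul B π D Z a
  md : MMod mul B π D a e
  hx : x0 ∈ D
  cls : ∀ x ∈ D, ∃ g, g * x * g⁻¹ = x0
  trans : ∀ x ∈ D, ∀ y ∈ D, ∀ y' ∈ D, x * y ∈ D → x * y' ∈ D →
    ∃ g, g * x = x * g ∧ g * y * g⁻¹ = y'
  ex3 : ∀ x ∈ D, ∃ w ∈ D, ∃ y ∈ D, x * w ∈ D ∧ x * y ∈ D ∧ y ≠ w ∧ x * y ≠ w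
  span2 : ∃ y0 ∈ D, x0 * y0 ∈ D ∧ ∀ v, (∀ g, g * x0 = x0 * g → g * y0 = y0 * g → π g v = v) →
    (∀ t ∈ D, t * x0 = x0 * t → t * y0 = y0 * t → B v (a t) = 0) → v = 0
  base : ∀ x ∈ D, ∀ z ∈ Z, z * x ∈ D → ∃ g, g * x * g⁻¹ = x0 ∧ g * z * g⁻¹ = z0
  neg : ∀ S : V →ₗ[ℝ] V, (∀ g, g * x0 = x0 * g → ∀ v, S (π g v) = π g (S v)) →
    (∀ y ∈ D, x0 * y = y * x0 → S (a y) = 0) →
    (∀ y ∈ D, ∀ y' ∈ D, y * y' = y' * y → B (S (a y)) (a y') = 0) → ∀ w, S (π z0 w) = -S w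
  four : ∃ z ∈ Z, ∃ z' ∈ Z, z * z' ∈ Z ∧ z * x0 ∈ D ∧ z' * x0 ∈ D ∧ z * z' * x0 ∈ D
  span : ∀ v, B v e = 0 → (∀ x ∈ D, B v (a x) = 0) → v = 0

/-- invariant trilinear forms killing the identity and vanishing on the diagonal of the axes -/
structure Gd (π : G →* (V ≃ₗ[ℝ] V)) (D : Set G) (a : G → V) (e : V)
    (F : V →ₗ[ℝ] V →ₗ[ℝ] V →ₗ[ℝ] ℝ) : Prop where
  inv : ∀ g u v w, F (π g u) (π g v) (π g w) = F u v w
  e1 : ∀ v w, F e v w = 0
  e2 : ∀ u w, F u e w = 0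
  e3 : ∀ u v, F u v e = 0
  dg : ∀ x ∈ D, F (a x) (a x) (a x) = 0

/-- exchange of the last two slots -/
def sw (F : V →ₗ[ℝ] V →ₗ[ℝ] V →ₗ[ℝ] ℝ) : V →ₗ[ℝ] V →ₗ[ℝ] V →ₗ[ℝ] ℝ :=
  (LinearMap.lflip (R₀ := ℝ)).toLinearMap ∘ₗ F

theorem sw_apply (F : V →ₗ[ℝ] V →ₗ[ℝ] V →ₗ[ℝ] ℝ) (u v w : V) : sw F u v w = F u w v := rfl

variable {F : V →ₗ[ℝ] V →ₗ[ℝ] V →ₗ[ℝ] ℝ}

theorem Gd.flip (h : Gd π D a e F) : Gd π D a e F.flip :=
  ⟨fun g u v w => h.inv g v u w, fun v w => h.e2 v w, fun u w => h.e1 u w,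
    fun u v => h.e3 v u, h.dg⟩

theorem Gd.sw (h : Gd π D a e F) : Gd π D a e (sw F) :=
  ⟨fun g u v w => h.inv g u w v, fun v w => h.e1 w v, fun u w => h.e3 u w,
    fun u v => h.e2 u v, h.dg⟩

theorem inv_apply (π : G →* (V ≃ₗ[ℝ] V)) (g : G) (v : V) : π g (π g⁻¹ v) = v := by
  rw [← LinearEquiv.mul_apply, ← map_mul, mul_inv_cancel, map_one]; rfl

theorem conj_apply (π : G →* (V ≃ₗ[ℝ] V)) (g z : G) (v : V) :
    π (g * z * g⁻¹) (π g v) = π g (π z v) := by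
  rw [← LinearEquiv.mul_apply, ← LinearEquiv.mul_apply, ← map_mul, ← map_mul,
    inv_mul_cancel_right]

namespace Ex

variable (h : Ex mul B π D Z a e x0 z0)
include h

theorem fd : FiniteDimensional ℝ V :=
  Module.finite_of_finrank_pos (by rw [h.md.dim]; norm_num)

theorem amb : Amb mul B := h.loc.amb

theorem symm (u v : V) : B u v = B v u := h.amb.2.1 u v

theorem ext {u v : V} (H : ∀ w, B u w = B v w) : u = v :=
  sub_eq_zero.1 ((nondeg h.amb).1 _ fun w => by rw [map_sub, LinearMap.sub_apply, H, sub_self])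

theorem riesz (φ : V →ₗ[ℝ] V →ₗ[ℝ] ℝ) : ∃ S : V →ₗ[ℝ] V, ∀ v w, B (S v) w = φ v w := by
  have := h.fd
  exact ⟨(B.toDual (nondeg h.amb)).symm.toLinearMap ∘ₗ φ, fun v w =>
    LinearMap.BilinForm.apply_toDual_symm_apply (hB := nondeg h.amb) (φ v) w⟩

theorem fix_a {g x : G} (hx : x ∈ D) (c : g * x = x * g) : π g (a x) = a x := by
  rw [← h.loc.act g x hx, c, mul_inv_cancel_right]

theorem B_move (g : G) (u w : V) : B (π g u) w = B u (π g⁻¹ w) := by
  rw [← h.loc.pB g u, inv_apply]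

theorem B_ae {x : G} (hx : x ∈ D) : B (a x) e = 1 := by
  have ax := h.loc.ax x hx
  have := h.amb.2.2.2.1 (a x) (a x) e
  rw [ax.idem, h.amb.1, h.md.e_mul, ax.norm] at this
  exact this.symm

theorem mul_ae (x : G) : mul (a x) e = a x := by rw [h.amb.1, h.md.e_mul]

theorem B_zero {x : G} (hx : x ∈ D) {v : V} (hv : mul (a x) v = 0) : B (a x) v = 0 :=
  (h.loc.ax x hx).B_eigen h.amb (c := 0) (by norm_num) (by rw [hv, zero_smul])

theorem mul_Z {x y : G} (hx : x ∈ D) (hy : y ∈ D) (hz : x * y ∈ Z) : mul (a x) (a y) = 0 :=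
  (h.loc.ax x hx).mul_eq_zero_of_B h.amb (h.loc.ax y hy).idem (h.loc.B_of_memZ hx hy hz)

theorem tri {x y : G} (hx : x ∈ D) (hy : y ∈ D) (c : x * y = y * x) :
    x = y ∨ x * y ∈ D ∨ x * y ∈ Z := by
  by_cases n : x = y
  · exact Or.inl n
  · exact Or.inr ((h.loc.two x hx y hy n c).imp And.left And.left)

theorem ex2 {x : G} (hx : x ∈ D) : ∃ y ∈ D, x * y ∈ Z := by
  obtain ⟨g, hg⟩ := h.cls x hx
  obtain ⟨z, hz, -, -, -, h1, -⟩ := h.four
  refine ⟨g⁻¹ * (z * x0) * g⁻¹⁻¹, h.loc.conj _ _ h1, ?_⟩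
  have e1 : x * (g⁻¹ * (z * x0) * g⁻¹⁻¹) = g⁻¹ * x0 * z * (g⁻¹ * x0)⁻¹ := by
    rw [mul_inv_rev, h.loc.inv h.hx, ← hg]; group
  rw [e1]
  exact h.loc.zconj _ _ hz

theorem span2' {x y : G} (hx : x ∈ D) (hy : y ∈ D) (hxy : x * y ∈ D) {v : V}
    (h1 : ∀ g, g * x = x * g → g * y = y * g → π g v = v)
    (h2 : ∀ t ∈ D, t * x = x * t → t * y = y * t → B v (a t) = 0) : v = 0 := by
  obtain ⟨y0, hy0, hxy0, H⟩ := h.span2
  obtain ⟨g1, e1⟩ := h.cls x hx
  obtain ⟨g2, c2, e2⟩ := h.trans x0 h.hx _ (h.loc.conj g1 y hy) y0 hy0 (by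
    have := h.loc.conj g1 _ hxy
    rwa [show g1 * (x * y) * g1⁻¹ = g1 * x * g1⁻¹ * (g1 * y * g1⁻¹) by group, e1] at this) hxy0
  obtain ⟨g, ex, ey⟩ : ∃ g, g * x * g⁻¹ = x0 ∧ g * y * g⁻¹ = y0 :=
    ⟨g2 * g1, by
      rw [show g2 * g1 * x * (g2 * g1)⁻¹ = g2 * (g1 * x * g1⁻¹) * g2⁻¹ by group, e1, c2,
        mul_inv_cancel_right], by rw [← e2]; group⟩
  have cj : ∀ {k s : G}, k * (g * s * g⁻¹) = g * s * g⁻¹ * k →
      g⁻¹ * k * g⁻¹⁻¹ * s = s * (g⁻¹ * k * g⁻¹⁻¹) := fun {k s} c => by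
    calc g⁻¹ * k * g⁻¹⁻¹ * s = g⁻¹ * (k * (g * s * g⁻¹)) * g := by group
      _ = _ := by rw [c]; group
  have : π g v = 0 := H _ (fun k c1 c2 => by
      have := h1 _ (cj (ex ▸ c1)) (cj (ey ▸ c2))
      rw [show k = g * (g⁻¹ * k * g⁻¹⁻¹) * g⁻¹ by group, conj_apply, this])
    fun t ht c1 c2 => by
      rw [h.B_move, ← h.loc.act _ _ ht]
      exact h2 _ (h.loc.conj _ _ ht) (cj (ex ▸ c1)) (cj (ey ▸ c2))
  exact (π g).map_eq_zero_iff.1 this

theorem zero_ea {x : G} (hx : x ∈ D) : mul (a x) (e - a x) = 0 := by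
  rw [map_sub, h.mul_ae, (h.loc.ax x hx).idem, sub_self]

/-- the centralizer of `x` fixes only the span of the axis and the identity -/
theorem fixK {x : G} (hx : x ∈ D) {v : V} (hv : ∀ g, g * x = x * g → π g v = v)
    (h1 : B (a x) v = 0) (h2 : B v e = 0) : v = 0 := by
  have ax := h.loc.ax x hx
  obtain ⟨w, hw, y, hy, hxw, hxy, n1, n2⟩ := h.ex3 x hx
  have ev := ax.even h.amb v (hv x rfl)
  rw [h1, mul_zero, zero_smul, add_zero] at ev
  have f4 : ∀ g, g * x = x * g → π g (mul (a x) v) = mul (a x) v := fun g c => by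
    rw [h.loc.pmul, h.fix_a hx c, hv g c]
  have z4 : mul (a x) v = 0 := by
    refine h.span2' hx hw hxw (fun g c _ => f4 g c) fun t ht c _ => ?_
    rcases h.tri hx ht c.symm with e1 | e1 | e1
    · rw [← e1, h.symm]
      exact ax.B_eigen h.amb (by norm_num) ev
    · have o := h.amb.orth (by norm_num) ev ((h.loc.v0 hx ht e1).trans (zero_smul ℝ _).symm)
      obtain ⟨g, c, eg⟩ := h.trans x hx t ht _ e1 e1 (by rwa [h.loc.cancel hx])
      have o2 : B (mul (a x) v) (a (x * t)) = B (mul (a x) v) (a t) := by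
        rw [← eg, h.loc.act g t ht, ← f4 g c, h.loc.pB, f4 g c]
      have o3 : B (mul (a x) v) (a x) = 0 := by
        rw [h.symm]; exact ax.B_eigen h.amb (by norm_num) ev
      simp only [map_sub, map_add, map_smul, smul_eq_mul] at o
      rw [o2, o3] at o
      linarith
    · exact h.amb.orth (by norm_num) ev ((h.mul_Z hx ht e1).trans (zero_smul ℝ _).symm)
  by_contra hne
  obtain ⟨c, hc⟩ := h.md.scK x hx ((B v).smulRight v) fun g cg u => by
    rw [LinearMap.smulRight_apply, LinearMap.smulRight_apply, map_smul, hv g cg, ← h.loc.pB g v u,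
      hv g cg]
  have pos := h.amb.2.2.1 v hne
  have c1 : c = B v v := by
    have := congrArg (B v) (hc v z4 h2)
    simp only [LinearMap.smulRight_apply, map_smul, smul_eq_mul] at this
    exact (mul_right_cancel₀ pos.ne' this).symm
  have fx : ∀ u, mul (a x) u = 0 → B u e = 0 → ∀ g, g * x = x * g → π g u = u :=
    fun u u1 u2 g cg => by
      have e1 := hc u u1 u2
      rw [LinearMap.smulRight_apply] at e1
      have e2 : c • π g u = c • u := by rw [← map_smul, ← e1, map_smul, hv g cg]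
      exact smul_right_injective V (by rw [c1]; exact pos.ne') e2
  obtain ⟨g, cg, eg⟩ := h.trans x hx y hy w hw hxy hxw
  have e3 := fx (a y + a (x * y) - (1 / 4 : ℝ) • a x - (7 / 188 : ℝ) • (e - a x))
    (by rw [map_sub, h.loc.v0 hx hy hxy, map_smul, h.zero_ea hx, smul_zero, sub_zero])
    (by
      simp only [map_sub, map_add, map_smul, LinearMap.sub_apply, LinearMap.add_apply,
        LinearMap.smul_apply, smul_eq_mul, h.B_ae hx, h.B_ae hy, h.B_ae hxy, h.md.e_norm]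
      norm_num) g cg
  have e4 : g * (x * y) * g⁻¹ = x * w := by rw [← eg, ← mul_assoc, cg]; group
  simp only [map_sub, map_add, map_smul, h.fix_a hx cg, h.md.e_fix, ← h.loc.act g y hy,
    ← h.loc.act g _ hxy, eg, e4, sub_left_inj] at e3
  have e5 := congrArg (B (a w)) e3
  have l1 := h.loc.le_of_ne hw hy n1.symm
  have l2 := h.loc.le_of_ne hw hxy n2.symm
  have l3 : B (a w) (a (x * w)) = 1 / 8 := h.loc.B_of_mem hw hxw (by
    rw [← mul_assoc, ← h.loc.comm hx hw hxw, mul_assoc, h.loc.sq hw, mul_one]; exact hx)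
  rw [map_add, map_add, h.loc.self hw, l3] at e5
  linarith

theorem s1 (f : Gd π D a e F) {x : G} (hx : x ∈ D) (w : V) : F (a x) (a x) w = 0 := by
  obtain ⟨S, hS⟩ := h.riesz (F (a x))
  have : S (a x) = 0 := h.fixK hx (fun g c => h.ext fun u => by
      rw [h.B_move, hS, hS, ← f.inv g, h.fix_a hx c, inv_apply])
    (by rw [h.symm, hS, f.dg x hx]) (by rw [hS, f.e3])
  rw [← hS, this, map_zero, LinearMap.zero_apply]

theorem s2 (f : Gd π D a e F) {x : G} (hx : x ∈ D) {v : V} (hv : mul (a x) v = 0) (w : V) :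
    F (a x) v w = 0 := by
  obtain ⟨S, hS⟩ := h.riesz (F (a x))
  obtain ⟨c, hc⟩ := h.md.scK x hx S fun g cg u => h.ext fun w => by
    rw [h.B_move, hS, hS, ← f.inv g (a x) u, h.fix_a hx cg, inv_apply]
  obtain ⟨y, hy, hz⟩ := h.ex2 hx
  have k : ∀ u, mul (a x) u = 0 → ∀ w, F (a x) u w = c * (B u w - B u e / 47 * B (e - a x) w) :=
    fun u hu w => by
      have := congrArg (B · w) (hc (u - (B u e / 47) • (e - a x))
        (by rw [map_sub, hu, map_smul, h.zero_ea hx, smul_zero, sub_zero])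
        (by
          simp only [map_sub, map_smul, LinearMap.sub_apply, LinearMap.smul_apply, smul_eq_mul,
            h.B_ae hx, h.md.e_norm]
          ring))
      simp only [hS] at this
      simp only [map_sub, map_smul, LinearMap.sub_apply, LinearMap.smul_apply, smul_eq_mul,
        f.e2, h.s1 f hx] at this ⊢
      linarith
  have k1 := k _ (h.mul_Z hx hy hz) (a y)
  have k2 : F (a x) (a y) (a y) = 0 := h.s1 f.flip.sw hy (a x)
  rw [k2, map_sub, LinearMap.sub_apply, h.loc.self hy, h.symm e, h.B_ae hy,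
    h.loc.B_of_memZ hx hy hz] at k1
  rw [k v hv, show c = 0 by linarith, zero_mul]

theorem s3 (f : Gd π D a e F) {x y : G} (hx : x ∈ D) (hy : y ∈ D) (c : x * y = y * x) (w : V) :
    F (a x) (a y) w = 0 := by
  rcases h.tri hx hy c with rfl | hxy | hxy
  · exact h.s1 f hx w
  swap
  · exact h.s2 f hx (h.mul_Z hx hy hxy) w
  obtain ⟨S, hS⟩ := h.riesz (F (a x))
  have rel : ∀ u, F (a x) (a y) u = -F (a x) (a (x * y)) u := fun u => by
    have := h.s2 f hx (h.loc.v0 hx hy hxy) u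
    simp only [map_sub, map_add, map_smul, LinearMap.sub_apply, LinearMap.add_apply,
      LinearMap.smul_apply, smul_eq_mul, h.s1 f hx] at this
    linarith
  have : S (a y) = 0 := h.span2' hx hy hxy (fun g c1 c2 => h.ext fun u => by
      rw [h.B_move, hS, hS, ← f.inv g, h.fix_a hx c1, h.fix_a hy c2, inv_apply])
    fun t ht c1 c2 => by
      rw [hS]
      rcases h.tri hx ht c1.symm with rfl | e1 | e1
      · exact h.s1 f.sw hx (a y)
      swap
      · exact h.s2 f.sw hx (h.mul_Z hx ht e1) (a y)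
      rcases h.tri hy ht c2.symm with rfl | e2 | e2
      · exact h.s1 f.flip.sw hy (a x)
      swap
      · exact h.s2 f.flip.sw hy (h.mul_Z hy ht e2) (a x)
      rw [rel]
      rcases h.tri hxy ht (by rw [mul_assoc, ← c2, ← mul_assoc, ← c1, mul_assoc]) with
        rfl | e3 | e3
      · rw [show F (a x) (a (x * y)) (a (x * y)) = 0 from h.s1 f.flip.sw hxy (a x), neg_zero]
      · exact (h.loc.no_pure hx hy ht hxy e1 e2 (by rwa [← mul_assoc])).elim
      · rw [show F (a x) (a (x * y)) (a t) = 0 from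
          h.s2 f.flip.sw hxy (h.mul_Z hxy ht e3) (a x), neg_zero]
  rw [← hS, this, map_zero, LinearMap.zero_apply]

theorem s4 (f : Gd π D a e F) {x z : G} (hx : x ∈ D) (hz : z ∈ Z) (hzx : z * x ∈ D) (w u : V) :
    F (a x) (π z w) u = -F (a x) w u := by
  obtain ⟨S, hS⟩ := h.riesz (F (a x0))
  have n := h.neg S (fun g cg v => h.ext fun w => by
      rw [h.B_move, hS, hS, ← f.inv g (a x0) v, h.fix_a h.hx cg, inv_apply])
    (fun y hy c => h.ext fun w => by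
      rw [hS, h.s3 f h.hx hy c, map_zero, LinearMap.zero_apply])
    (fun y hy y' hy' c => by rw [hS]; exact h.s3 f.flip.sw hy hy' c (a x0))
  obtain ⟨g, e1, e2⟩ := h.base x hx z hz hzx
  rw [← f.inv g, ← f.inv g (a x) w, ← h.loc.act g x hx, e1, ← conj_apply, e2, ← hS, ← hS, n,
    map_neg, LinearMap.neg_apply]

theorem s5 (f : Gd π D a e F) {x : G} (hx : x ∈ D) (w u : V) : F (a x) w u = 0 := by
  obtain ⟨z, hz, z', hz', hzz, h1, h2, h3⟩ := h.four
  have k : ∀ w u, F (a x0) w u = 0 := fun w u => by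
    have := h.s4 f h.hx hzz h3 w u
    rw [map_mul, LinearEquiv.mul_apply, h.s4 f h.hx hz h1, h.s4 f h.hx hz' h2] at this
    linarith
  obtain ⟨g, e1⟩ := h.cls x hx
  rw [← f.inv g, ← h.loc.act g x hx, e1, k]

theorem zero (f : Gd π D a e F) (u v w : V) : F u v w = 0 := by
  obtain ⟨S, hS⟩ := h.riesz (sw F.flip v)
  have : S w = 0 := h.span _ (by rw [hS]; exact f.e1 v w) fun x hx => by
    rw [hS]; exact h.s5 f hx v w
  have e1 := hS w u
  rw [this, map_zero, LinearMap.zero_apply] at e1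
  exact e1.symm

/-- coordinates on the orthogonal complement of the identity -/
theorem coord : ∃ (ι : (Fin 196883 → ℝ) →ₗ[ℝ] V) (κ : V →ₗ[ℝ] (Fin 196883 → ℝ)),
    (∀ u, κ (ι u) = u) ∧ (∀ v, ι (κ v) = v - (B v e / 48) • e) ∧ ∀ u, B (ι u) e = 0 := by
  have := h.fd
  let f : V →ₗ[ℝ] ℝ := B.flip e
  have hf : ∀ v, f v = B v e := fun _ => rfl
  have f1 : f e = 48 := h.md.e_norm
  have hs : LinearMap.range f = ⊤ := LinearMap.range_eq_top.2 fun c =>
    ⟨(c / 48) • e, by rw [map_smul, f1, smul_eq_mul]; ring⟩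
  have hd := LinearMap.finrank_range_add_finrank_ker f
  rw [hs, finrank_top, Module.finrank_self, h.md.dim] at hd
  let ψ := (Module.finBasisOfFinrankEq ℝ (LinearMap.ker f) (n := 196883) (by omega)).equivFun
  let p : V →ₗ[ℝ] V := LinearMap.id - ((1 / 48 : ℝ) • f).smulRight e
  have hp : ∀ v, p v = v - (B v e / 48) • e := fun v => by
    simp only [p, LinearMap.sub_apply, LinearMap.id_apply, LinearMap.smulRight_apply,
      LinearMap.smul_apply, smul_eq_mul, hf]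
    rw [one_div, inv_mul_eq_div]
  have mem : ∀ v, p v ∈ LinearMap.ker f := fun v => by
    rw [LinearMap.mem_ker, hp, map_sub, map_smul, f1, hf, smul_eq_mul]; ring
  refine ⟨(LinearMap.ker f).subtype ∘ₗ ψ.symm.toLinearMap,
    ψ.toLinearMap ∘ₗ p.codRestrict _ mem, fun u => ?_, fun v => ?_, fun u => (ψ.symm u).2⟩
  · change ψ ⟨p (ψ.symm u), mem _⟩ = u
    rw [← ψ.eq_symm_apply]
    refine Subtype.ext ?_
    change p (ψ.symm u) = ψ.symm u
    rw [hp, show B (ψ.symm u) e = 0 from (ψ.symm u).2, zero_div, zero_smul, sub_zero]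
  · change ((ψ.symm (ψ ⟨p v, mem _⟩) : LinearMap.ker f) : V) = _
    rw [ψ.symm_apply_apply, ← hp]

/-- an invariant subspace has an equivariant projection -/
theorem proj (U : Submodule ℝ V) (hU : ∀ g, ∀ v ∈ U, π g v ∈ U) :
    ∃ P : V →ₗ[ℝ] V, (∀ g v, P (π g v) = π g (P v)) ∧ (∀ v, P v ∈ U) ∧ ∀ v ∈ U, P v = v := by
  have := h.fd
  have hr : B.IsRefl := fun u v e => by rw [h.symm, e]
  have c : IsCompl U (B.orthogonal U) :=
    LinearMap.BilinForm.isCompl_orthogonal_of_restrict_nondegenerate hr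
      ⟨fun u H => Subtype.ext (h.amb.eq_zero (H u)), fun u H => Subtype.ext (h.amb.eq_zero (H u))⟩
  refine ⟨U.projection _ c, fun g v => ?_, fun v => U.projection_apply_mem c v,
    fun v hv => Submodule.projection_apply_left c ⟨v, hv⟩⟩
  have h1 := U.projection_apply_mem c v
  have h2 := Submodule.sub_projection_mem c v
  have h3 : π g (v - U.projection _ c v) ∈ B.orthogonal U := fun n hn => by
    change B n _ = 0
    rw [h.symm, h.B_move, h.symm]
    exact h2 _ (hU _ _ hn)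
  have h4 := Submodule.projection_apply_right c ⟨_, h3⟩
  have h5 := Submodule.projection_apply_left c ⟨_, hU g _ h1⟩
  simp only [map_sub] at h4 h5
  rw [h5] at h4
  exact sub_eq_zero.1 h4

theorem norton {H : Type*} [Group H] (φ : H ≃* G) :
    ∃ ρ : Representation ℝ H (Fin 196883 → ℝ), Function.Injective ρ ∧
      (∀ W : Submodule ℝ (Fin 196883 → ℝ), (∀ g : H, W.map (ρ g) ≤ W) → W = ⊥ ∨ W = ⊤) ∧
      (∃ B : LinearMap.BilinForm ℝ (Fin 196883 → ℝ), B ≠ 0 ∧ (∀ u v, B u v = B v u) ∧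
        ∀ (g : H) (u v : (Fin 196883 → ℝ)), B (ρ g u) (ρ g v) = B u v) ∧
      ∃ m : (Fin 196883 → ℝ) →ₗ[ℝ] (Fin 196883 → ℝ) →ₗ[ℝ] (Fin 196883 → ℝ), m ≠ 0 ∧
        (∀ u v, m u v = m v u) ∧
        (∀ (g : H) (u v : (Fin 196883 → ℝ)), m (ρ g u) (ρ g v) = ρ g (m u v)) ∧
        ∀ m' : (Fin 196883 → ℝ) →ₗ[ℝ] (Fin 196883 → ℝ) →ₗ[ℝ] (Fin 196883 → ℝ),
          (∀ (g : H) (u v : (Fin 196883 → ℝ)), m' (ρ g u) (ρ g v) = ρ g (m' u v)) →
            ∃ c : ℝ, m' = c • m := by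
  obtain ⟨ι, κ, k1, k2, k3⟩ := h.coord
  have Be : ∀ g v, B (π g v) e = B v e := fun g v => by rw [← h.loc.pB g v e, h.md.e_fix]
  have k4 : ∀ g u, ι (κ (π g (ι u))) = π g (ι u) := fun g u => by
    rw [k2, Be, k3, zero_div, zero_smul, sub_zero]
  have inj : Function.Injective ι := Function.LeftInverse.injective k1
  have ke : κ e = 0 := inj (by rw [k2, h.md.e_norm, map_zero]; simp)
  obtain ⟨ρ, hρ⟩ : ∃ ρ : Representation ℝ H (Fin 196883 → ℝ),
      ∀ g u, ι (ρ g u) = π (φ g) (ι u) :=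
    ⟨{ toFun g := κ ∘ₗ (π (φ g) : V →ₗ[ℝ] V) ∘ₗ ι
       map_one' := LinearMap.ext fun u => by simp [k1]
       map_mul' g g' := LinearMap.ext fun u => by simp [k4] }, fun g u => k4 _ u⟩
  have k5 : ∀ g v, κ (π (φ g) v) = ρ g (κ v) := fun g v => inj (by
    rw [hρ, k2, k2, Be, map_sub, map_smul, h.md.e_fix])
  have ba := h.B_ae h.hx
  have val : B (ι (κ (mul (ι (κ (a x0))) (ι (κ (a x0)))))) (a x0) = 23 / 24 * (47 / 48) := by
    simp only [k2, map_sub, map_smul, LinearMap.sub_apply, LinearMap.smul_apply, smul_eq_mul,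
      h.md.e_mul, h.mul_ae, (h.loc.ax x0 h.hx).idem, h.loc.self h.hx, ba, h.symm e, h.md.e_norm]
    norm_num
  have em : ∀ g u v, (mul.compl₁₂ ι ι).compr₂ κ (ρ g u) (ρ g v) =
      ρ g ((mul.compl₁₂ ι ι).compr₂ κ u v) := fun g u v => by
    simp only [LinearMap.compr₂_apply, LinearMap.compl₁₂_apply, hρ, ← h.loc.pmul, k5]
  refine ⟨ρ, fun g g' e1 => φ.injective (h.loc.inj (LinearEquiv.ext fun v => ?_)),
    fun W hW => ?_, ⟨B.compl₁₂ ι ι, fun e1 => ?_, fun u v => h.symm _ _, fun g u v => ?_⟩,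
    (mul.compl₁₂ ι ι).compr₂ κ, fun e1 => ?_, fun u v => congrArg κ (h.amb.1 _ _), em,
    fun m' hm => ?_⟩
  · have e2 : π (φ g) (ι (κ v)) = π (φ g') (ι (κ v)) := by rw [← hρ, ← hρ, e1]
    rwa [k2, map_sub, map_sub, map_smul, map_smul, h.md.e_fix, h.md.e_fix, sub_left_inj] at e2
  · obtain ⟨P, p1, p2, p3⟩ := h.proj (W.map ι) (by
      rintro g _ ⟨u, hu, rfl⟩
      refine ⟨ρ (φ.symm g) u, hW _ ⟨u, hu, rfl⟩, ?_⟩
      rw [hρ, φ.apply_symm_apply])
    obtain ⟨c, hc⟩ := h.md.scG P p1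
    refine or_iff_not_imp_left.2 fun n => eq_top_iff.2 fun u _ => ?_
    obtain ⟨w, hw, n0⟩ := Submodule.exists_mem_ne_zero_of_ne_bot n
    have c1 : c = 1 := smul_left_injective ℝ (fun e1 => n0 (inj (e1.trans (map_zero ι).symm)))
      (show c • ι w = (1 : ℝ) • ι w by rw [← hc _ (k3 w), p3 _ ⟨w, hw, rfl⟩, one_smul])
    obtain ⟨u', hu', e1⟩ := p2 (ι u)
    rw [hc _ (k3 u), c1, one_smul] at e1
    exact inj e1 ▸ hu'
  · have e2 : B (ι (κ (mul (ι (κ (a x0))) (ι (κ (a x0)))))) (ι (κ (a x0))) = 0 :=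
      LinearMap.congr_fun₂ e1 _ _
    rw [k2 (a x0), map_sub, map_smul, k3, ← k2, val] at e2
    norm_num at e2
  · rw [LinearMap.compl₁₂_apply, LinearMap.compl₁₂_apply, hρ, hρ, h.loc.pB]
  · have e2 : κ (mul (ι (κ (a x0))) (ι (κ (a x0)))) = 0 := LinearMap.congr_fun₂ e1 _ _
    rw [e2, map_zero, map_zero, LinearMap.zero_apply] at val
    norm_num at val
  · obtain ⟨c, hc⟩ : ∃ c : ℝ, c * (23 / 24 * (47 / 48)) =
        B (ι (m' (κ (a x0)) (κ (a x0)))) (a x0) := ⟨_, div_mul_cancel₀ _ (by norm_num)⟩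
    refine ⟨c, sub_eq_zero.1 ?_⟩
    obtain ⟨n, hn⟩ : ∃ n, n = m' - c • (mul.compl₁₂ ι ι).compr₂ κ := ⟨_, rfl⟩
    have en : ∀ g u v, n (ρ g u) (ρ g v) = ρ g (n u v) := fun g u v => by
      simp only [hn, LinearMap.sub_apply, LinearMap.smul_apply, hm, em, map_sub, map_smul]
    obtain ⟨F, hF⟩ : ∃ F : V →ₗ[ℝ] V →ₗ[ℝ] V →ₗ[ℝ] ℝ, ∀ u v w,
        F u v w = B (ι (n (κ u) (κ v))) w := ⟨((n.compl₁₂ κ κ).compr₂ ι).compr₂ B, fun _ _ _ => rfl⟩
    have fi : ∀ g u v w, F (π g u) (π g v) (π g w) = F u v w := fun g u v w => by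
      obtain ⟨g, rfl⟩ := φ.surjective g
      rw [hF, hF, k5, k5, en, hρ, h.loc.pB]
    have f0 : F (a x0) (a x0) (a x0) = 0 := by
      rw [hF, hn]
      simp only [LinearMap.sub_apply, LinearMap.smul_apply, map_sub, map_smul, smul_eq_mul,
        LinearMap.compr₂_apply, LinearMap.compl₁₂_apply, val, hc, sub_self]
    have f : Gd π D a e F := ⟨fi, fun v w => by simp [hF, ke], fun v w => by simp [hF, ke],
      fun u v => by rw [hF, k3], fun x hx => by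
        obtain ⟨g, e1⟩ := h.cls x hx
        rw [← fi g, ← h.loc.act g x hx, e1, f0]⟩
    rw [← hn]
    refine LinearMap.ext₂ fun u v => inj (h.ext fun w => ?_)
    have := h.zero f (ι u) (ι v) w
    rw [hF, k1, k1] at this
    simp [this]

end Ex

end Cfsg.Agent.H70.Nor
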