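import Cfsg.Agent.H70.NorA
import Cfsg.Agent.H97.MoFin

/-! The Griess module and the automorphism group of the Griess algebra form a Norton pair. -/

set_option autoImplicit false

namespace Cfsg.Agent.H70.Nor

open Cfsg Finset Matrix Cfsg.Agent.H48 Cfsg.Agent.H42.Pk Cfsg.Agent.H97.Mj Cfsg.Agent.H97.Gr
open Cfsg.Agent.H97.Gr.B6b

theorem dvd_mm (i j k l : Pt) : 16 ∣ dotInt (rm i j).1 (rm k l).1 := by
  rw [dot_rm, rm_val]
  simp only [Pi.sub_apply, Pi.single_apply]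
  split_ifs <;> norm_num

theorem dvd_mp (i j k l : Pt) : 16 ∣ dotInt (rm i j).1 (rp k l).1 := by
  rw [dot_rm, rp_val]
  simp only [Pi.add_apply, Pi.single_apply]
  split_ifs <;> norm_num

theorem comm_qq {r s : Lam} (h : 16 ∣ dotInt r.1 s.1) (ε δ : ZMod 2) :
    qq r ε * qq s δ = qq s δ * qq r ε := qq_comm_iff.2 ((ipL_zero_iff r s).2 h)

theorem perp {v : B ℝ} {s : Lam} (h : ∀ δ, fm v (ax s δ) = 0) :
    mf v s = 0 ∧ rAr (mA v) s = 0 := by
  have h0 := h 0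
  have h1 := h 1
  rw [fm_ax] at h0 h1
  rw [sg_zero] at h0
  rw [sg_one] at h1
  constructor <;> linarith

theorem mA_zero {v : B ℝ} (h1 : ∀ k l, k ≠ l → rAr (mA v) (rm k l) = 0)
    (h2 : ∀ k l, k ≠ l → rAr (mA v) (rp k l) = 0) : mA v = 0 := by
  have key : ∀ k l, k ≠ l → mA v k l = 0 ∧ mA v k k + mA v l l = 0 := fun k l n => by
    have a1 := h1 k l n
    have a2 := h2 k l n
    have a3 : mA v l k = mA v k l := congrFun (congrFun (mA_tr v) k) l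
    rw [b4_rAr_rm] at a1
    rw [b4_rAr_rp] at a2
    constructor <;> linarith
  ext k l
  by_cases n : k = l
  · subst n
    obtain ⟨a, ha⟩ := b4_exists {k} (by simp)
    obtain ⟨b, hb⟩ := b4_exists {k, a} (lt_of_le_of_lt card_le_two (by norm_num))
    simp only [mem_insert, mem_singleton, not_or] at ha hb
    have b1 := (key a k ha).2
    have b2 := (key b k hb.1).2
    have b3 := (key b a hb.2).2
    rw [Matrix.zero_apply]
    linarith
  · exact (key k l n).1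

theorem rm_sh {k l : Pt} (n : k ≠ l) : rm k l ∈ sh := mem_sh.2 (sqNorm_rm n)
theorem rp_sh {k l : Pt} (n : k ≠ l) : rp k l ∈ sh := mem_sh.2 (sqNorm_rp n)

theorem z_comm (r : Lam) (ε : ZMod 2) : zA * qq r ε = qq r ε * zA := by
  rw [zA_mul_qq, qq_mul_zA]

theorem span2 {i j k l : Pt} {ε δ : ZMod 2} (v : B ℝ)
    (h1 : ∀ g : Aut ℝ, g * qq (rm i j) ε = qq (rm i j) ε * g →
      g * qq (rm k l) δ = qq (rm k l) δ * g → g.1 v = v)
    (h2 : ∀ t ∈ DD, t * qq (rm i j) ε = qq (rm i j) ε * t →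
      t * qq (rm k l) δ = qq (rm k l) δ * t → fm v (aa t) = 0) : v = 0 := by
  have k1 : ∀ s ∈ sh, 16 ∣ dotInt (rm i j).1 s.1 → 16 ∣ dotInt (rm k l).1 s.1 →
      mf v s = 0 ∧ rAr (mA v) s = 0 := fun s hs d1 d2 => perp fun η => by
    rw [← aa_qq hs]
    exact h2 _ (qq_mem_DD hs η) (comm_qq d1 _ _).symm (comm_qq d2 _ _).symm
  refine B_ext (mA_zero (fun a b n => (k1 _ (rm_sh n) (dvd_mm ..) (dvd_mm ..)).2)
    fun a b n => (k1 _ (rp_sh n) (dvd_mp ..) (dvd_mp ..)).2) (funext fun s => ?_) ?_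
  · change mf v s = 0
    by_cases hs : s ∈ sh
    swap
    · exact mf_of_ne _ fun e => hs (mem_sh.2 e)
    by_cases d1 : 16 ∣ dotInt (rm i j).1 s.1
    · by_cases d2 : 16 ∣ dotInt (rm k l).1 s.1
      · exact (k1 s hs d1 d2).1
      · exact (evn_iff.1 (h1 _ (comm_qq (dvd_mm ..) _ _) rfl)).f s d2
    · exact (evn_iff.1 (h1 _ rfl (comm_qq (dvd_mm ..) _ _))).f s d1
  · have := b1_mt_zA v
    rw [h1 zA (z_comm _ _) (z_comm _ _)] at this
    exact eq_zero_of_eq_neg r2ne this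

theorem neg_core {T : B ℝ} (h1 : mA T = 0) (h2 : mf T = 0) : zA.1 T = (-1 : ℝ) • T :=
  B_ext (by rw [b1_mA_zA, mA_smul, h1, smul_zero]) (by rw [b1_mf_zA, mf_smul', h2, smul_zero])
    (by rw [b1_mt_zA, mt_smul, neg_one_smul])

theorem eV_zero {r : Lam} (hr : r ∈ sh) {ε : ZMod 2} (S : B ℝ →ₗ[ℝ] B ℝ)
    (hS : ∀ g : Aut ℝ, g * qq r ε = qq r ε * g → ∀ v, S (g.1 v) = g.1 (S v))
    (h1 : ∀ y ∈ DD, qq r ε * y = y * qq r ε → S (aa y) = 0)
    (h2 : ∀ y ∈ DD, ∀ y' ∈ DD, y * y' = y' * y → fm (S (aa y)) (aa y') = 0)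
    {s : Lam} (hs : s ∈ sh) : S (eV s) = 0 := by
  by_cases d : 16 ∣ dotInt r.1 s.1
  · have : ∀ η, S (ax s η) = 0 := fun η => by
      rw [← aa_qq hs]; exact h1 _ (qq_mem_DD hs η) (comm_qq d _ _)
    rw [b4_eV_eq, map_smul, map_sub, this, this, sub_self, smul_zero]
  obtain ⟨c, hc⟩ := b4_eig S (fun w => 16 ∣ dotInt r.1 w.1)
    (fun w hw => hS _ (comm_qq hw _ _).symm) (hS _ (z_comm _ _)) hs
    ⟨r, by rw [dot_self hr]; norm_num, by rwa [dotInt_comm]⟩ fun s' hs' n1 n2 =>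
      b4_sep (b4_sub_not_mem hs hs' n1 n2) fun hm => by
        obtain ⟨u, hu⟩ := mem_twoLam.1 hm
        have e1 := H49.cong.norm_mod (v := s + r) (w := s')
          ⟨u, by rw [← two_nsmul, ← hu]; abel⟩
        have e2 := eight_dvd_dot r.2 s.2
        rw [norm_add, mem_sh.1 hs, mem_sh.1 hs', mem_sh.1 hr, dotInt_comm] at e1
        omega
  have k : ∀ η η', fm (S (ax s η)) (ax s η') = 0 := fun η η' => by
    rw [← aa_qq hs, ← aa_qq hs]
    exact h2 _ (qq_mem_DD hs η) _ (qq_mem_DD hs η') (comm_qq (by rw [dot_self hs]; norm_num) _ _)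
  have e1 : fm (S (eV s)) (eV s) = 0 := by
    simp only [b4_eV_eq, map_smul, map_sub, LinearMap.smul_apply, LinearMap.sub_apply, k,
      sub_self, smul_zero]
  rw [hc, fm_eV, mf_smul, mf_eV hs, if_pos (Or.inl rfl)] at e1
  rw [hc, show c = 0 by linarith, zero_smul]

theorem neg {i j : Pt} (n : i ≠ j) {ε : ZMod 2} (S : B ℝ →ₗ[ℝ] B ℝ)
    (hS : ∀ g : Aut ℝ, g * qq (rm i j) ε = qq (rm i j) ε * g → ∀ v, S (g.1 v) = g.1 (S v))
    (h1 : ∀ y ∈ DD, qq (rm i j) ε * y = y * qq (rm i j) ε → S (aa y) = 0)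
    (h2 : ∀ y ∈ DD, ∀ y' ∈ DD, y * y' = y' * y → fm (S (aa y)) (aa y') = 0) (w : B ℝ) :
    S (zA.1 w) = -S w := by
  have : FiniteDimensional ℝ (B ℝ) := Module.finite_of_finrank_pos (by rw [dim_B]; norm_num)
  refine sub_eq_zero.1 ((nondeg amb).2 _ fun u => ?_)
  obtain ⟨T, hT⟩ : ∃ T, ∀ w, fm T w = fm u (S w) :=
    ⟨(fm.toDual (nondeg amb)).symm (fm u ∘ₗ S), fun w =>
      LinearMap.BilinForm.apply_toDual_symm_apply (hB := nondeg amb) _ w⟩
  have k1 : ∀ s ∈ sh, 16 ∣ dotInt (rm i j).1 s.1 → rAr (mA T) s = 0 := fun s hs d =>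
    (perp fun η => by
      rw [hT, ← aa_qq hs, h1 _ (qq_mem_DD hs η) (comm_qq d _ _), map_zero]).2
  have k2 := neg_core (mA_zero (fun a b n => k1 _ (rm_sh n) (dvd_mm ..))
    fun a b n => k1 _ (rp_sh n) (dvd_mp ..)) (funext fun s => by
      change mf T s = 0
      by_cases hs : s ∈ sh
      swap
      · exact mf_of_ne _ fun e => hs (mem_sh.2 e)
      have := hT (eV s)
      rw [eV_zero (rm_sh n) S hS h1 h2 hs, map_zero, fm_eV] at this
      linarith)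
  have k3 := aut_fm zA (zA.1 T) w
  rw [← b1_mul_apply, B6a.zA_sq, k2, map_smul, LinearMap.smul_apply] at k3
  rw [map_sub, map_neg, ← hT, ← hT]
  change fm T (zA.1 w) = _ at k3
  rw [k3, smul_eq_mul]; ring

theorem ex : Ex mul fm pA DD ZZ aa one x0 zA where
  loc := mloc
  md := mmod
  hx := x0_mem
  cls x hx := by
    obtain ⟨g, rfl⟩ := mem_DD.1 hx
    exact ⟨g⁻¹, by group⟩
  trans x hx y hy y' hy' h h' := trans_nb hx hy hy' h h'
  ex3 x hx := by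
    obtain ⟨-, -, w, hw, y, hy, e⟩ := card_nb mloc meq_real hx (nb_ne x hx)
    rw [mem_nb] at hw hy
    refine ⟨w, hw.1, y, hy.1, hw.2, hy.2, fun e1 => mrep.ne x hx ?_, fun e1 => mrep.ne x hx ?_⟩
    · rw [e1, mrep.sq hw.1, one_mul] at e
      exact mul_eq_right.1 e.symm
    · rw [← e1, mrep.cancel hx, mrep.comm hx hy.1 hy.2, mrep.cancel hy.1] at e
      exact mul_eq_right.1 e
  span2 := by
    have n : (some 0 : Pt) ≠ some 1 := by decide
    exact ⟨qq (rm (some 0) (some 1)) 0, qq_mem_DD (rm_sh n) 0,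
      mul_mem_of_two r0_mem (rm_sh n) (Or.inr (by
        rw [r0, dot_rm, rm_val]; simp [n])) _ _, span2⟩
  base x hx z hz h := by
    obtain ⟨g, e⟩ := exists_z hz
    obtain ⟨r, hr, ε, e1⟩ := loc_z e hx h
    obtain ⟨c, c1, c2, -⟩ := exists_conj_qq hr r0_mem ε 1
    refine ⟨c * g, ?_, ?_⟩
    · rw [show c * g * x * (c * g)⁻¹ = c * (g * x * g⁻¹) * c⁻¹ by group, e1, c2, x0]
    · rw [show c * g * z * (c * g)⁻¹ = c * (g * z * g⁻¹) * c⁻¹ by group, e, c1,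
        mul_inv_cancel_right]
  neg := neg (by simp)
  four := by
    have hs : rp none (some 0) ∈ sh := rp_sh (by simp)
    have d : dotInt (rp none (some 0)).1 r0.1 = 0 := by
      rw [dotInt_comm]; exact b4_dot_mp' (by simp)
    refine ⟨zA, zA_mem, qq (rp none (some 0)) 0 * x0, mul_mem_of_zero hs r0_mem d _ _, ?_, ?_,
      ?_, ?_⟩
    · rw [← mul_assoc, zA_mul_qq]; exact mul_mem_of_zero hs r0_mem d _ _
    · rw [x0, zA_mul_qq]; exact qq_mem_DD r0_mem _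
    · rw [mul_assoc, mrep.sq x0_mem, mul_one]; exact qq_mem_DD hs _
    · rw [mul_assoc, mul_assoc, mrep.sq x0_mem, mul_one, zA_mul_qq]; exact qq_mem_DD hs _
  span v h1 h2 := spanG h1 fun g s => by
    by_cases hs : s ∈ sh
    swap
    · exact mf_of_ne _ fun e => hs (mem_sh.2 e)
    refine (perp fun η => ?_).1
    have := h2 _ (mrep.conj g⁻¹ _ (qq_mem_DD hs η))
    rwa [mrep.act _ _ (qq_mem_DD hs η), aa_qq hs, ← mrep.pB g, inv_apply] at this

theorem norton {H : Type*} [Group H] (φ : H ≃* Aut ℝ) :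
    ∃ ρ : Representation ℝ H (Fin 196883 → ℝ), Function.Injective ρ ∧
      (∀ W : Submodule ℝ (Fin 196883 → ℝ), (∀ g : H, W.map (ρ g) ≤ W) → W = ⊥ ∨ W = ⊤) ∧
      (∃ B : LinearMap.BilinForm ℝ (Fin 196883 → ℝ), B ≠ 0 ∧ (∀ u v, B u v = B v u) ∧
        ∀ (g : H) (u v : (Fin 196883 → ℝ)), B (ρ g u) (ρ g v) = B u v) ∧
      ∃ m : (Fin 196883 → ℝ) →ₗ[ℝ] (Fin 196883 → ℝ) →ₗ[ℝ] (Fin 196883 → ℝ), m ≠ 0 ∧
        (∀ u v, m u v = m v u) ∧
        (∀ (g : H) (u v : (Fin 196883 → ℝ)), m (ρ g u) (ρ g v) = ρ g (m u v)) ∧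
        ∀ m' : (Fin 196883 → ℝ) →ₗ[ℝ] (Fin 196883 → ℝ) →ₗ[ℝ] (Fin 196883 → ℝ),
          (∀ (g : H) (u v : (Fin 196883 → ℝ)), m' (ρ g u) (ρ g v) = ρ g (m' u v)) →
            ∃ c : ℝ, m' = c • m :=
  ex.norton φ

end Cfsg.Agent.H70.Nor
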