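import Cfsg.Agent.H70.PF4

/-! Translation between families indexed by `W →* ℂˣ` and by pairs of characters of `W₁`, `W₂`. -/

set_option autoImplicit false
set_option linter.unusedVariables false
set_option linter.unusedSectionVars false

namespace Cfsg.Agent.H70

open Cfsg Cfsg.Agent.H63 Cfsg.Agent.H67 Cfsg.Agent.H68
open scoped ComplexConjugate

universe u

variable {G : Type u} [Group G] {W₁ W₂ W : Subgroup G}

theorem homPairEquiv_mul (hd : IsDp W₁ W₂ W) (φ ψ : W →* ℂˣ) :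
    homPairEquiv hd (φ * ψ) = homPairEquiv hd φ * homPairEquiv hd ψ := rfl

theorem homPairEquiv_inv (hd : IsDp W₁ W₂ W) (φ : W →* ℂˣ) :
    homPairEquiv hd φ⁻¹ = (homPairEquiv hd φ)⁻¹ := rfl

theorem homPairEquiv_one (hd : IsDp W₁ W₂ W) : homPairEquiv hd 1 = 1 := rfl

theorem homPair_snd_eq_one (hd : IsDp W₁ W₂ W) {φ : W →* ℂˣ} :
    (∀ w : W, (w : G) ∈ W₂ → φ w = 1) ↔ (homPairEquiv hd φ).2 = 1 :=
  ⟨fun h => MonoidHom.ext fun y => h _ y.2, fun h w hw => DFunLike.congr_fun h ⟨w, hw⟩⟩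

theorem homPair_fst_eq_one (hd : IsDp W₁ W₂ W) {φ : W →* ℂˣ} :
    (∀ w : W, (w : G) ∈ W₁ → φ w = 1) ↔ (homPairEquiv hd φ).1 = 1 :=
  ⟨fun h => MonoidHom.ext fun y => h _ y.2, fun h w hw => DFunLike.congr_fun h ⟨w, hw⟩⟩

theorem homPair_snd_eq (hd : IsDp W₁ W₂ W) {φ ψ : W →* ℂˣ} :
    (∀ w : W, (w : G) ∈ W₂ → φ w = ψ w) ↔ (homPairEquiv hd φ).2 = (homPairEquiv hd ψ).2 :=
  ⟨fun h => MonoidHom.ext fun y => h _ y.2, fun h w hw => DFunLike.congr_fun h ⟨w, hw⟩⟩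

theorem exists_pair (hd : IsDp W₁ W₂ W) (φ : W →* ℂˣ) : ∃ i j, φ = (homPairEquiv hd).symm (i, j) :=
  ⟨_, _, ((homPairEquiv hd).symm_apply_apply φ).symm⟩

theorem exists_left_of_trivial (hd : IsDp W₁ W₂ W) {φ : W →* ℂˣ} (h : ∀ w : W, (w : G) ∈ W₂ → φ w = 1) :
    ∃ i, φ = (homPairEquiv hd).symm (i, 1) :=
  ⟨_, by rw [← (homPair_snd_eq_one hd).1 h]; exact ((homPairEquiv hd).symm_apply_apply φ).symm⟩

theorem exists_right_of_trivial (hd : IsDp W₁ W₂ W) {φ : W →* ℂˣ} (h : ∀ w : W, (w : G) ∈ W₁ → φ w = 1) :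
    ∃ j, φ = (homPairEquiv hd).symm (1, j) :=
  ⟨_, by rw [← (homPair_fst_eq_one hd).1 h]; exact ((homPairEquiv hd).symm_apply_apply φ).symm⟩

theorem homPair_symm_mul (hd : IsDp W₁ W₂ W) (i i' : W₁ →* ℂˣ) (j j' : W₂ →* ℂˣ) :
    (homPairEquiv hd).symm (i, j) * (homPairEquiv hd).symm (i', j') =
      (homPairEquiv hd).symm (i * i', j * j') := by
  rw [Equiv.eq_symm_apply, homPairEquiv_mul, Equiv.apply_symm_apply, Equiv.apply_symm_apply]; rfl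

theorem homPair_symm_left_mul_right (hd : IsDp W₁ W₂ W) (i : W₁ →* ℂˣ) (j : W₂ →* ℂˣ) :
    (homPairEquiv hd).symm (i, 1) * (homPairEquiv hd).symm (1, j) = (homPairEquiv hd).symm (i, j) := by
  rw [homPair_symm_mul, mul_one, one_mul]

theorem homPair_symm_one (hd : IsDp W₁ W₂ W) : (homPairEquiv hd).symm (1, 1) = 1 := by
  rw [Equiv.symm_apply_eq]; rfl

theorem homPair_symm_eq_one (hd : IsDp W₁ W₂ W) {i : W₁ →* ℂˣ} {j : W₂ →* ℂˣ} :
    (homPairEquiv hd).symm (i, j) = 1 ↔ i = 1 ∧ j = 1 := by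
  rw [Equiv.symm_apply_eq]; exact Prod.ext_iff

theorem omega_coe (hd : IsDp W₁ W₂ W) (i : W₁ →* ℂˣ) (j : W₂ →* ℂˣ) (w : W) :
    omega W₁ W₂ i j w = (homPairEquiv hd).symm (i, j) w := by
  rw [← linChar_homPairEquiv_symm hd, linChar_coe]

theorem res_cfCycTI (hd : IsDp W₁ W₂ W) (i : W₁ →* ℂˣ) (j : W₂ →* ℂˣ) :
    res W (cfCycTI W₁ W₂ i j) = fun w => 1 - ((homPairEquiv hd).symm (i, 1) w : ℂ) -
      ((homPairEquiv hd).symm (1, j) w : ℂ) +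
      ((homPairEquiv hd).symm (i, 1) w : ℂ) * ((homPairEquiv hd).symm (1, j) w : ℂ) := funext fun w => by
  simp only [res, cfCycTI, Pi.add_apply, Pi.sub_apply, omega_coe hd, homPair_symm_one]
  rw [← homPair_symm_left_mul_right hd i j]
  simp

variable [Fintype G]

theorem etaFam_of_family (hd : IsDp W₁ W₂ (W₁ ⊔ W₂)) {χ : (↥(W₁ ⊔ W₂) →* ℂˣ) → G → ℂ}
    (hχ : IsCyclicTIFamily W₁ W₂ χ) : EtaFam W₁ W₂ fun i j => χ ((homPairEquiv hd).symm (i, j)) where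
  dirr i j := isDirr_top.2 (hχ.irr_or_neg _)
  orth i i' j j' hne := by
    rw [cfdot_top, hχ.orthonormal, if_neg fun e => ?_]
    rw [Equiv.apply_eq_iff_eq, Prod.ext_iff] at e
    exact hne.elim (fun h => h e.1) fun h => h e.2
  one := by rw [homPair_symm_one, hχ.map_one]; rfl
  ind i j := by
    by_cases hi : i = 1
    · rw [hi, cfCycTI_one_left, map_zero]; abel
    by_cases hj : j = 1
    · rw [hj, cfCycTI_one_right, map_zero]; abel
    rw [cfInd_top, res_cfCycTI hd, hχ.induced_eq _ _ (fun e => hi ((homPair_symm_eq_one hd).1 e).1)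
      (fun e => hj ((homPair_symm_eq_one hd).1 e).2)
      ((homPair_snd_eq_one hd).2 (by rw [Equiv.apply_symm_apply]))
      ((homPair_fst_eq_one hd).2 (by rw [Equiv.apply_symm_apply])), homPair_symm_left_mul_right,
      homPair_symm_one, hχ.map_one]
    rfl

theorem CycTI.family (h : CycTI W₁ W₂) :
    IsCyclicTIFamily W₁ W₂ fun ω => eta W₁ W₂ (homPairEquiv h.dp ω).1 (homPairEquiv h.dp ω).2 where
  irr_or_neg ω := isDirr_top.1 (cycTIiso_dirr h _ _)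
  orthonormal ω ω' := by
    rw [← cfdot_top, cfdot_cycTIiso h]
    by_cases e : ω = ω'
    · rw [if_pos e, if_pos (by rw [e]; exact ⟨rfl, rfl⟩)]
    · rw [if_neg e, if_neg fun h' => e ((homPairEquiv h.dp).injective (Prod.ext h'.1 h'.2))]
  map_one := eta_one_one h
  eq_on ω w h1 h2 := by
    rw [eta_restrict h _ _ (mem_cycV.2 ⟨w.2, h1, h2⟩), omega_homPairEquiv, linChar_coe]
  induced_eq φ ψ _ _ h1 h2 := by
    obtain ⟨i, rfl⟩ := exists_left_of_trivial h.dp h1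
    obtain ⟨j, rfl⟩ := exists_right_of_trivial h.dp h2
    rw [← res_cfCycTI h.dp, ← cfInd_top, cfInd_cfCycTI h, eta_one_one h, homPair_symm_left_mul_right]
    simp only [Equiv.apply_symm_apply]
    rfl

theorem primeTI_top {K : Subgroup G} [hK : K.Normal] (h1 : K ⊓ W₁ = ⊥) (h2 : K ⊔ W₁ = ⊤) (h3 : W₁ ≠ ⊥)
    (h4 : IsCyclic W₁) (h5 : Nat.Coprime (Nat.card W₁) W₁.index) (h6 : W₂ ≠ ⊥) (h7 : IsCyclic W₂)
    (h8 : W₂ ≤ K) (h9 : ∀ x ∈ W₁, x ≠ 1 → K ⊓ Subgroup.centralizer ({x} : Set G) = W₂)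
    (h10 : Odd (Nat.card ↥(W₁ ⊔ W₂))) : PrimeTI ⊤ K W₁ W₂ :=
  ⟨⟨Subgroup.le_normalizer_of_normal, h1, h2⟩, h3, ⟨le_top, by rwa [Subgroup.relIndex_top_right]⟩, h4,
    h6, h8, h7, h9, h10⟩

end Cfsg.Agent.H70
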