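import Cfsg.Agent.H42.PcDefs
import Cfsg.Agent.H4.CoprimeAction
import Cfsg.Agent.H8.Tate

/-! Project PC: a normal subgroup below `Z` with central elementary quotient. -/

set_option autoImplicit false

namespace Cfsg.Agent.H70.PcW

open Subgroup Cfsg.Agent.H42.Pc

universe u

theorem ww : WStmt.{u} := by
  intro G _ _ U Z hU hZ pU le ne
  have : Fact (Nat.Prime 2) := ⟨Nat.prime_two⟩
  have pZ := pU.to_le le
  have lt := H4.commutator_lt_of_isPGroup pU pZ le_normalizer_of_normal ne
  refine ⟨⁅Z, U⁆ ⊔ (frattini Z).map Z.subtype, inferInstance, sup_le lt.le (map_subtype_le _),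
    fun h => lt.ne (le_antisymm lt.le ?_), fun x hx => ⟨mem_sup_right ?_, fun a ha => mem_sup_left ?_⟩⟩
  · have e : (⁅Z, U⁆.subgroupOf Z) ⊔ frattini Z = ⊤ := by
      apply map_injective Z.subtype_injective
      rw [Subgroup.map_sup, map_subgroupOf_eq_of_le lt.le, ← MonoidHom.range_eq_map, range_subtype]
      exact le_antisymm (sup_le lt.le (map_subtype_le _)) h
    exact subgroupOf_eq_top.1 (frattini_nongenerating e)
  · exact ⟨_, H8.pow_mem_frattini pZ ⟨x, hx⟩, by simp [sq]⟩
  · have := commutator_mem_commutator (inv_mem hx) ha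
    simpa [commutatorElement_def, mul_assoc] using this

end Cfsg.Agent.H70.PcW
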