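import Cfsg.Agent.H87.PSDefs

/-!
Project PS, piece IMP1: if the point stabilizer is `(v - 2)`-transitive on the `v` classes, then
`v ≤ 2 s + 2`.
-/

set_option autoImplicit false
set_option linter.unusedSectionVars false

namespace Cfsg.Agent.H70.PsImp1

open Equiv Finset Cfsg.Agent.H87.PS

universe u

section

variable {α : Type u} [Fintype α] [DecidableEq α]

open Classical in
/-- The class of `b` for `E x`. -/
noncomputable def cl (E : α → α → α → Prop) (x b : α) : Finset α := univ.filter (E x b)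

open Classical in
/-- The classes of `E x`. -/
noncomputable def bl (E : α → α → α → Prop) (x : α) : Finset (Finset α) :=
  (univ.erase x).image (cl E x)

omit [DecidableEq α] in
theorem mem_cl {E : α → α → α → Prop} {x b c : α} : c ∈ cl E x b ↔ E x b c := by
  simp [cl]

theorem mem_bl {E : α → α → α → Prop} {x : α} {B : Finset α} :
    B ∈ bl E x ↔ ∃ b, b ≠ x ∧ cl E x b = B := by
  simp [bl]

variable {X : Subgroup (Perm α)} {s v : ℕ} {E : α → α → α → Prop}

theorem card_cl (h : Blk X s v E) {x b : α} (hb : b ≠ x) : (cl E x b).card = s := by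
  rw [← h.size x b hb, ← Set.ncard_coe_finset]
  congr 1
  ext c
  simp [cl]

theorem cl_eq (h : Blk X s v E) {x b c : α} (hbc : E x b c) : cl E x b = cl E x c := by
  ext d
  rw [mem_cl, mem_cl]
  exact ⟨fun h1 => h.trans _ _ _ _ (h.symm _ _ _ hbc) h1, fun h1 => h.trans _ _ _ _ hbc h1⟩

theorem rel_of_cl_eq (h : Blk X s v E) {x b c : α} (hc : c ≠ x) (hbc : cl E x b = cl E x c) :
    E x b c := by
  have h1 : c ∈ cl E x c := mem_cl.2 (h.refl _ _ hc)
  rw [← hbc] at h1
  exact mem_cl.1 h1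

theorem card_erase (h : Blk X s v E) (x : α) : (univ.erase x).card = s * v := by
  rw [card_erase_of_mem (mem_univ _), card_univ, h.card]
  rfl

theorem card_bl (h : Blk X s v E) (x : α) : (bl E x).card = v := by
  have h1 := card_eq_sum_card_image (cl E x) (univ.erase x)
  rw [card_erase h] at h1
  have h2 : ∀ B ∈ (univ.erase x).image (cl E x),
      ((univ.erase x).filter (fun b => cl E x b = B)).card = s := by
    intro B hB
    obtain ⟨b, hb, rfl⟩ := mem_image.1 hB
    have hb' : b ≠ x := (mem_erase.1 hb).1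
    rw [← card_cl h hb']
    congr 1
    ext c
    simp only [mem_filter, mem_erase, mem_univ, and_true, mem_cl]
    exact ⟨fun h3 => rel_of_cl_eq h h3.1 h3.2.symm,
      fun h3 => ⟨(h.ne _ _ _ h3).2, (cl_eq h h3).symm⟩⟩
  rw [sum_congr rfl h2, sum_const, smul_eq_mul, mul_comm s v] at h1
  have h3 : 0 < s := lt_of_lt_of_le (by norm_num) h.s2
  exact (Nat.eq_of_mul_eq_mul_right h3 h1).symm

open Classical in
/-- Pairs of distinct related points with first entry in `S`. -/
noncomputable def pr (E : α → α → α → Prop) (x : α) (S : Finset α) : Finset (α × α) :=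
  univ.filter (fun p => p.1 ∈ S ∧ p.1 ≠ p.2 ∧ E x p.1 p.2)

theorem mem_pr {x : α} {S : Finset α} {p : α × α} :
    p ∈ pr E x S ↔ p.1 ∈ S ∧ p.1 ≠ p.2 ∧ E x p.1 p.2 := by
  simp [pr]

theorem card_pr (h : Blk X s v E) {x : α} {S : Finset α} (hS : x ∉ S) :
    (pr E x S).card = S.card * (s - 1) := by
  have h1 : ∀ p ∈ pr E x S, p.1 ∈ S := fun p hp => (mem_pr.1 hp).1
  rw [card_eq_sum_card_fiberwise h1]
  have h2 : ∀ c ∈ S, ((pr E x S).filter (fun p => p.1 = c)).card = s - 1 := by
    intro c hc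
    have hcx : c ≠ x := fun h3 => hS (h3 ▸ hc)
    have h3 : ((cl E x c).erase c).card = s - 1 := by
      rw [card_erase_of_mem (mem_cl.2 (h.refl _ _ hcx)), card_cl h hcx]
    rw [← h3]
    refine card_bij (fun p _ => p.2) ?_ ?_ ?_
    · intro p hp
      obtain ⟨h4, h5⟩ := mem_filter.1 hp
      obtain ⟨-, h6, h7⟩ := mem_pr.1 h4
      rw [h5] at h6 h7
      exact mem_erase.2 ⟨h6.symm, mem_cl.2 h7⟩
    · intro p hp q hq hpq
      exact Prod.ext ((mem_filter.1 hp).2.trans (mem_filter.1 hq).2.symm) hpq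
    · intro d hd
      obtain ⟨h4, h5⟩ := mem_erase.1 hd
      exact ⟨(c, d), mem_filter.2 ⟨mem_pr.2 ⟨hc, h4.symm, mem_cl.1 h5⟩, rfl⟩, rfl⟩
  rw [sum_congr rfl h2, sum_const, smul_eq_mul]

/-- Step (1): some `b`-class meets two `a`-classes other than the class of `b`. -/
theorem step1 (h : Blk X s v E) (hv : 3 ≤ v) (a : α) :
    ∃ b c d, b ≠ a ∧ E b c d ∧ c ≠ a ∧ d ≠ a ∧ ¬ E a b c ∧ ¬ E a b d ∧ ¬ E a c d := by
  classical
  by_contra H
  push Not at H
  set P := pr E a (univ.erase a) with hP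
  have hPc : P.card = s * v * (s - 1) := by
    rw [hP, card_pr h (by simp), card_erase h]
  have h1 : ∀ b ∈ univ.erase a,
      s * v * (s - 1) ≤ (P.filter (fun p => E b p.1 p.2)).card + 2 * (s * (s - 1)) := by
    intro b hb
    have hba : b ≠ a := (mem_erase.1 hb).1
    set S := insert a ((cl E a b).erase b) with hS
    have hSb : b ∉ S := by
      simp [hS, hba]
    have hSc : S.card = s := by
      have h2 : a ∉ (cl E a b).erase b := fun h3 =>
        (h.ne _ _ _ (mem_cl.1 (mem_erase.1 h3).2)).2 rfl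
      rw [hS, card_insert_of_notMem h2, card_erase_of_mem (mem_cl.2 (h.refl _ _ hba)),
        card_cl h hba]
      have := h.s2
      omega
    have h2 : (pr E b S).card = s * (s - 1) := by rw [card_pr h hSb, hSc]
    have h3 : (pr E b (univ.erase b)).card = s * v * (s - 1) := by
      rw [card_pr h (by simp), card_erase h]
    have h4 : pr E b (univ.erase b) ⊆
        P.filter (fun p => E b p.1 p.2) ∪ pr E b S ∪ (pr E b S).image Prod.swap := by
      intro p hp
      obtain ⟨-, h5, h6⟩ := mem_pr.1 hp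
      obtain ⟨h7, h8⟩ := h.ne _ _ _ h6
      by_cases h9 : p.1 ∈ S
      · exact mem_union_left _ (mem_union_right _ (mem_pr.2 ⟨h9, h5, h6⟩))
      by_cases h10 : p.2 ∈ S
      · refine mem_union_right _ (mem_image.2 ⟨p.swap, mem_pr.2 ⟨h10, h5.symm, ?_⟩, rfl⟩)
        exact h.symm _ _ _ h6
      refine mem_union_left _ (mem_union_left _ (mem_filter.2 ⟨?_, h6⟩))
      simp only [hS, mem_insert, mem_erase, mem_cl, not_or, not_and] at h9 h10
      exact mem_pr.2 ⟨mem_erase.2 ⟨h9.1, mem_univ _⟩, h5,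
        H b p.1 p.2 hba h6 h9.1 h10.1 (h9.2 h7) (h10.2 h8)⟩
    have h5 := (card_le_card h4).trans ((card_union_le _ _).trans
      (Nat.add_le_add (card_union_le _ _) card_image_le))
    rw [h2, h3] at h5
    omega
  have h2 := sum_le_sum h1
  have h2' : ∑ b ∈ univ.erase a, (P.filter (fun p => E b p.1 p.2)).card =
      ∑ p ∈ P, ((univ.erase a).filter (fun b => E b p.1 p.2)).card := by
    simp only [card_filter]
    exact sum_comm
  rw [sum_const, sum_add_distrib, sum_const, card_erase h, smul_eq_mul, smul_eq_mul, h2'] at h2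
  have h3 : ∀ p ∈ P, ((univ.erase a).filter (fun b => E b p.1 p.2)).card = s - 2 := by
    intro p hp
    obtain ⟨-, h4, h5⟩ := mem_pr.1 hp
    have h6 : (univ.filter (fun b => E b p.1 p.2)).card = s - 1 := by
      rw [← h.cnt _ _ h4, ← Set.ncard_coe_finset]
      congr 1
      ext b
      simp
    have h7 : (univ.erase a).filter (fun b => E b p.1 p.2) =
        (univ.filter (fun b => E b p.1 p.2)).erase a := by
      ext b
      simp
    rw [h7, card_erase_of_mem (by simpa using h5), h6]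
    omega
  rw [sum_congr rfl h3, sum_const, hPc, smul_eq_mul] at h2
  obtain ⟨t, rfl⟩ := Nat.exists_eq_add_of_le' h.s2
  obtain ⟨w, rfl⟩ := Nat.exists_eq_add_of_le' hv
  simp only [show t + 2 - 1 = t + 1 from rfl, Nat.add_sub_cancel] at h2
  have h8 : (t + 2) * (w + 3) * (t + 1) * ((t + 2) * (w + 3)) ≤
      (t + 2) * (w + 3) * (t + 1) * (t + 2 * (t + 2)) := by
    calc _ = (t + 2) * (w + 3) * ((t + 2) * (w + 3) * (t + 1)) := by ring
      _ ≤ _ := h2
      _ = _ := by ring
  have h9 := Nat.le_of_mul_le_mul_left h8 (by positivity)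
  nlinarith

open Classical in
/-- The `a`-classes other than the class of `b` met by `W`. -/
noncomputable def jj (E : α → α → α → Prop) (a b : α) (W : Finset α) : Finset (Finset α) :=
  (W.filter (fun c => c ≠ a ∧ ¬ E a b c)).image (cl E a)

theorem mem_jj {a b : α} {W B : Finset α} :
    B ∈ jj E a b W ↔ ∃ c ∈ W, c ≠ a ∧ ¬ E a b c ∧ cl E a c = B := by
  simp only [jj, mem_image, mem_filter]
  exact ⟨fun ⟨c, ⟨h1, h2, h3⟩, h4⟩ => ⟨c, h1, h2, h3, h4⟩,
    fun ⟨c, h1, h2, h3, h4⟩ => ⟨c, ⟨h1, h2, h3⟩, h4⟩⟩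

/-- `Alt` for an arbitrary finite index type. -/
theorem alt_index {a : α} (hA : Alt X v E a) {ι : Type*} [Fintype ι]
    (hι : Fintype.card ι + 2 ≤ v) (b c : ι → α) (hb : ∀ i, b i ≠ a) (hc : ∀ i, c i ≠ a)
    (hb' : ∀ i k, E a (b i) (b k) → i = k) (hc' : ∀ i k, E a (c i) (c k) → i = k) :
    ∃ g ∈ X, g a = a ∧ ∀ i, E a (g (b i)) (c i) := by
  let e := (Fintype.equivFin ι).symm
  obtain ⟨g, hg, h1, h2⟩ := hA _ hι (b ∘ e) (c ∘ e) (fun i => hb _) (fun i => hc _)
    (fun i k h => e.injective (hb' _ _ h)) (fun i k h => e.injective (hc' _ _ h))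
  exact ⟨g, hg, h1, fun i => by simpa using h2 (e.symm i)⟩

theorem inv_iff (h : Blk X s v E) {g : Perm α} (hg : g ∈ X) {x y z : α} :
    E (g x) (g y) (g z) ↔ E x y z := by
  refine ⟨fun h1 => ?_, h.inv g hg _ _ _⟩
  simpa using h.inv g⁻¹ (inv_mem hg) _ _ _ h1

/-- Step (2): every set of `a`-classes of the right size is some `jj`. -/
theorem step2 (h : Blk X s v E) {a : α} (hA : Alt X v E a) {b w : α} (hb : b ≠ a) (hw : w ≠ b)
    (hj : (jj E a b (cl E b w)).card + 3 ≤ v) (T : Finset (Finset α))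
    (hT : T ⊆ (bl E a).erase (cl E a b)) (hTc : T.card = (jj E a b (cl E b w)).card) :
    ∃ b' ∈ cl E a b, ∃ W ∈ bl E b', jj E a b' W = T := by
  classical
  set J := jj E a b (cl E b w) with hJ
  have hJs : J ⊆ (bl E a).erase (cl E a b) := by
    intro B hB
    obtain ⟨c, -, h1, h2, rfl⟩ := mem_jj.1 hB
    exact mem_erase.2 ⟨fun h3 => h2 (rel_of_cl_eq h h1 h3.symm), mem_bl.2 ⟨c, h1, rfl⟩⟩
  have hr : ∀ B : Finset α, ∃ r : α, B ∈ bl E a → r ≠ a ∧ cl E a r = B := by
    intro B
    by_cases hB : B ∈ bl E a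
    · obtain ⟨r, h1, h2⟩ := mem_bl.1 hB
      exact ⟨r, fun _ => ⟨h1, h2⟩⟩
    · exact ⟨a, fun h1 => absurd h1 hB⟩
  choose r hr using hr
  let φ : J ≃ T := Finset.equivOfCardEq hTc.symm
  have key : ∀ (f : J → Finset α), Function.Injective f →
      (∀ B, f B ∈ (bl E a).erase (cl E a b)) →
      (∀ i : Option J, i.elim b (fun B => r (f B)) ≠ a) ∧
      (∀ i k : Option J, E a (i.elim b (fun B => r (f B))) (k.elim b (fun B => r (f B))) →
        i = k) := by
    intro f hf hf'
    have h1 : ∀ B, r (f B) ≠ a ∧ cl E a (r (f B)) = f B := fun B =>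
      hr _ (mem_erase.1 (hf' B)).2
    refine ⟨fun i => ?_, fun i k hik => ?_⟩
    · cases i with
      | none => exact hb
      | some B => exact (h1 B).1
    · have h2 := cl_eq h hik
      cases i with
      | none =>
        cases k with
        | none => rfl
        | some C =>
          simp only [Option.elim_none, Option.elim_some, (h1 C).2] at h2
          exact absurd h2.symm (mem_erase.1 (hf' C)).1
      | some B =>
        cases k with
        | none =>
          simp only [Option.elim_none, Option.elim_some, (h1 B).2] at h2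
          exact absurd h2 (mem_erase.1 (hf' B)).1
        | some C =>
          simp only [Option.elim_some, (h1 B).2, (h1 C).2] at h2
          rw [hf h2]
  obtain ⟨k1, k2⟩ := key (fun B => B.1) Subtype.val_injective (fun B => hJs B.2)
  obtain ⟨k3, k4⟩ := key (fun B => (φ B).1) (Subtype.val_injective.comp φ.injective)
    (fun B => hT (φ B).2)
  obtain ⟨g, hg, hga, hgE⟩ := alt_index hA (ι := Option J)
    (by rw [Fintype.card_option, Fintype.card_coe]; omega) _ _ k1 k3 k2 k4
  have g0 : E a (g b) b := hgE none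
  have ginv : ∀ y z, E a (g y) (g z) ↔ E a y z := fun y z => by
    conv_lhs => rw [← hga]
    exact inv_iff h hg
  have g1 : ∀ (B : J) (c : α), c ≠ a → cl E a c = B.1 → cl E a (g c) = (φ B).1 := by
    intro B c hc hcB
    have h1 := hr _ (mem_erase.1 (hJs B.2)).2
    have h2 := hr _ (mem_erase.1 (hT (φ B).2)).2
    have h3 : E a c (r B.1) := rel_of_cl_eq h h1.1 (hcB.trans h1.2.symm)
    have h4 : E a (g (r B.1)) (r (φ B).1) := hgE (some B)
    rw [← h2.2]
    exact cl_eq h (h.trans _ _ _ _ ((ginv _ _).2 h3) h4)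
  refine ⟨g b, mem_cl.2 (h.symm _ _ _ g0), cl E (g b) (g w),
    mem_bl.2 ⟨g w, g.injective.ne hw, rfl⟩, ?_⟩
  ext B
  rw [mem_jj]
  constructor
  · rintro ⟨c, h1, h2, h3, rfl⟩
    obtain ⟨c, rfl⟩ := g.surjective c
    have h4 : c ≠ a := fun h5 => h2 (by rw [h5, hga])
    have h5 : cl E a c ∈ J := mem_jj.2 ⟨c, mem_cl.2 ((inv_iff h hg).1 (mem_cl.1 h1)), h4,
      fun h6 => h3 ((ginv _ _).2 h6), rfl⟩
    rw [g1 ⟨_, h5⟩ c h4 rfl]
    exact (φ _).2
  · intro hB
    obtain ⟨c, h1, h2, h3, h4⟩ := mem_jj.1 (φ.symm ⟨B, hB⟩).2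
    refine ⟨g c, mem_cl.2 ((inv_iff h hg).2 (mem_cl.1 h1)), fun h5 => h2 (g.injective ?_),
      fun h5 => h3 ((ginv _ _).1 h5), ?_⟩
    · rw [h5, hga]
    · rw [g1 _ c h2 h4, Equiv.apply_symm_apply]

end

theorem choose_two_le {n j : ℕ} (h2 : 2 ≤ j) (hj : j + 2 ≤ n) : n.choose 2 ≤ n.choose j := by
  have key : ∀ k, 2 ≤ k → k ≤ n / 2 → n.choose 2 ≤ n.choose k := by
    intro k hk
    induction k, hk using Nat.le_induction with
    | base => exact fun _ => le_rfl
    | succ k _ ih =>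
      exact fun h => (ih (by omega)).trans (Nat.choose_le_succ_of_lt_half_left (by omega))
  by_cases h : j ≤ n / 2
  · exact key j h2 h
  · rw [← Nat.choose_symm (show j ≤ n by omega)]
    exact key _ (by omega) (by omega)

theorem imp1 : Imp1Stmt.{u} := by
  intro α _ _ X s v E a h hA
  classical
  have hs := h.s2
  by_contra hv
  obtain ⟨b, c, d, hb, hcd, hc, hd, hbc, hbd, hcd'⟩ := step1 h (by omega) a
  have hcb : c ≠ b := (h.ne _ _ _ hcd).1
  set J := jj E a b (cl E b c) with hJ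
  have hJ1 : J.card ≤ s := by
    rw [← card_cl h hcb]
    exact card_image_le.trans (card_filter_le _ _)
  have hJ2 : 2 ≤ J.card := by
    refine one_lt_card.2 ⟨cl E a c, mem_jj.2 ⟨c, mem_cl.2 (h.refl _ _ hcb), hc, hbc, rfl⟩,
      cl E a d, mem_jj.2 ⟨d, mem_cl.2 hcd, hd, hbd, rfl⟩, fun h1 => hcd' ?_⟩
    exact rel_of_cl_eq h hd h1
  have hsub : powersetCard J.card ((bl E a).erase (cl E a b)) ⊆
      ((cl E a b).sigma (fun b' => bl E b')).image (fun p => jj E a p.1 p.2) := by
    intro T hT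
    obtain ⟨h1, h2⟩ := mem_powersetCard.1 hT
    obtain ⟨b', h3, W, h4, h5⟩ := step2 h hA hb hcb (by rw [← hJ]; omega) T h1 h2
    exact mem_image.2 ⟨⟨b', W⟩, mem_sigma.2 ⟨h3, h4⟩, h5⟩
  have h1 := (card_le_card hsub).trans card_image_le
  rw [card_powersetCard, card_erase_of_mem (mem_bl.2 ⟨b, hb, rfl⟩), card_bl h, card_sigma,
    sum_congr rfl (fun b' _ => card_bl h b'), sum_const, card_cl h hb, smul_eq_mul] at h1
  have h2 := (choose_two_le hJ2 (show J.card + 2 ≤ v - 1 by omega)).trans h1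
  rw [Nat.choose_two_right] at h2
  obtain ⟨w, rfl⟩ := Nat.exists_eq_add_of_le' (show 2 * s + 3 ≤ v by omega)
  have h3 : w + (2 * s + 3) - 1 - 1 = w + 2 * s + 1 := by omega
  have h4 : w + (2 * s + 3) - 1 = w + 2 * s + 2 := by omega
  rw [h3, h4] at h2
  have h5 := (Nat.div_le_iff_le_mul_add_pred (by norm_num : 0 < 2)).1 h2
  nlinarith

end Cfsg.Agent.H70.PsImp1
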