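import Mathlib
import Cfsg.Agent.H70.QTSporW
import Cfsg.Agent.H46.J3
import Cfsg.Agent.H78.QTExc
import Cfsg.Agent.H81.LyM

/-!
`J₃` and `Ly` are fat.
-/

set_option autoImplicit false
set_option maxRecDepth 200000

namespace Cfsg.Agent.H70.QS

open Cfsg Subgroup Cfsg.Agent.H81.QT Cfsg.Spor

theorem fat_singer {G : Type*} [Group G] [Finite G] {x y z h t : G} (hx : x * (x * x) = 1)
    (hy : y * (y * y) = 1) (hz : z * (z * z) = 1) (xy : x * y = y * x) (xz : x * z = z * x)
    (yz : y * z = z * y) (x1 : x ≠ 1) (y1 : y ∉ closure ({x} : Set G)) (z1 : z ≠ 1)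
    (h1 : h * x = y * h) (h2 : h * y = x * (y * (y * h))) (h3 : z * (h * z) = h)
    (t1 : x * (t * x) = t) (t2 : y * (t * y) = t) (t3 : t * z = z * t) : Fat G := by
  have inv : ∀ {a b : G}, a * (b * a) = b → b * a * b⁻¹ = a⁻¹ := fun {a b} e => by
    calc b * a * b⁻¹ = a⁻¹ * (a * (b * a)) * b⁻¹ := by group
      _ = a⁻¹ := by rw [e]; group
  have t3' : t * z * t⁻¹ = z := by rw [t3]; group
  refine fat3 Nat.prime_three (by norm_num) (cube_of_rel hx) (cube_of_rel hy) (cube_of_rel hz) xy xz yz x1 y1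
    (fun e => ?_) ?_
  · have := inv_closure (u := t) (by simp [xy]) (by simp [inv t1, inv t2]) z e
    exact z1 (eq_one_of_inv Nat.prime_three (by norm_num) (cube_of_rel hz) (by rw [← this, t3']))
  · have ht := mem_norm3 (Or.inr (inv t1)) (Or.inr (inv t2)) (Or.inl t3')
    have mx : x ∈ closure ({z, y, x} : Set G) := subset_closure (by simp)
    have my : y ∈ closure ({z, y, x} : Set G) := subset_closure (by simp)
    have mz : z ∈ closure ({z, y, x} : Set G) := subset_closure (by simp)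
    have hh : h ∈ normalizer (closure ({z, y, x} : Set G) : Set G) := by
      apply H45.mem_norm_closure
      intro a ha
      simp only [Set.mem_insert_iff, Set.mem_singleton_iff] at ha
      rcases ha with rfl | rfl | rfl
      · rw [inv h3]; exact inv_mem mz
      · rw [h2, show x * (a * (a * h)) * h⁻¹ = x * (a * a) by group]; exact mul_mem mx (mul_mem my my)
      · rw [h1, mul_inv_cancel_right]; exact my
    intro w hw
    simp only [Set.mem_insert_iff, Set.mem_singleton_iff] at hw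
    rcases hw with rfl | rfl | rfl
    · exact ⟨h, hh, by
        rw [comm_inv (inv h3)]; exact mem_zpowers_sq Nat.prime_three (by norm_num) (cube_of_rel hz)⟩
    · exact ⟨t, ht, by
        rw [comm_inv (inv t2)]; exact mem_zpowers_sq Nat.prime_three (by norm_num) (cube_of_rel hy)⟩
    · exact ⟨t, ht, by
        rw [comm_inv (inv t1)]; exact mem_zpowers_sq Nat.prime_three (by norm_num) (cube_of_rel hx)⟩

section J3

open Cfsg.Agent.H46 Cfsg.Agent.H46.J3

/-- An element of the centre of a Sylow 3-subgroup. -/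
noncomputable def jx : ℕ := OJ.word nm [19, 0, 19, 12, 14, 0, 25, 19, 0, 17, 17, 11, 25, 19]
/-- An element of order eight. -/
noncomputable def jh : ℕ := OJ.word nm [8, 3]
/-- The conjugate of `jx` by `jh`. -/
noncomputable def jy : ℕ := OJ.word nm [8, 3, 19, 0, 19, 12, 14, 0, 25, 19, 0, 17, 17, 11, 25, 19, 3, 8]
/-- An element of order three centralizing the involution. -/
noncomputable def jz : ℕ := OJ.word nm [3, 4, 4, 4, 3, 4, 4]

theorem fat_J3' {F : Type*} [Field F] {ω : F} (hF : H46.IsF4 ω) : Fat (Spor.J3 F ω) := by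
  have := finite_J hF
  have hw : ∀ l : List ℕ, (∀ j ∈ l, j < 27) → ∃ g, (CJ hF).R (OJ.word nm l) g := fun l hl =>
    ⟨_, (CJ hF).R_word (g := fun j => (CJ hF).el (nm j)) l fun j hj => R_nm hF (hl j hj)⟩
  obtain ⟨x, hx⟩ : ∃ g, (CJ hF).R jx g := hw _ (by decide)
  obtain ⟨y, hy⟩ : ∃ g, (CJ hF).R jy g := hw _ (by decide)
  obtain ⟨z, hz⟩ : ∃ g, (CJ hF).R jz g := hw _ (by decide)
  obtain ⟨h, hh⟩ : ∃ g, (CJ hF).R jh g := hw _ (by decide)
  obtain ⟨t, ht⟩ := exJ_nm hF (k := 19) (by norm_num)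
  have m := @Coded.R_mul _ _ _ (CJ hF)
  have e := @Coded.eq_of_eqB _ _ _ (CJ hF)
  have n := @Coded.ne_of_eqB _ _ _ (CJ hF)
  have o := (CJ hF).R_one
  have x3 := e (m hx (m hx hx)) o (by decide +kernel)
  exact fat_singer x3 (e (m hy (m hy hy)) o (by decide +kernel)) (e (m hz (m hz hz)) o (by decide +kernel))
    (e (m hx hy) (m hy hx) (by decide +kernel)) (e (m hx hz) (m hz hx) (by decide +kernel))
    (e (m hy hz) (m hz hy) (by decide +kernel)) (n hx o (by decide +kernel))
    (not_mem3 x3 (n hy o (by decide +kernel)) (n (m hy hx) o (by decide +kernel))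
      (n (m hy (m hx hx)) o (by decide +kernel))) (n hz o (by decide +kernel))
    (e (m hh hx) (m hy hh) (by decide +kernel)) (e (m hh hy) (m hx (m hy (m hy hh))) (by decide +kernel))
    (e (m hz (m hh hz)) hh (by decide +kernel)) (e (m hx (m ht hx)) ht (by decide +kernel))
    (e (m hy (m ht hy)) ht (by decide +kernel)) (e (m ht hz) (m hz ht) (by decide +kernel))

end J3

section G2

open Cfsg.Lie Cfsg.Agent.H37 Cfsg.Agent.H34 Cfsg.Agent.H34.Cert Cfsg.Agent.H78.QTE

theorem fat_G2 {F : Type*} [Field F] {p : ℕ} [CharP F p] (hp : p.Prime) (e2 : p ≠ 2) :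
    Fat (chevG2.group F) := by
  have e := MulEquiv.refl (chevG2.group F)
  have hx : ∀ r, cG2.xg F r 1 ^ p = 1 := fun r => by
    rw [xg_pow, CharP.cast_eq_zero, zero_mul, xg_zero]
  refine fat_of_three' e.toMonoidHom e.injective hp e2 (range_top e (cG2.xg _ 9 1))
    (range_top e (cG2.xg _ 10 1)) (range_top e (cG2.xg _ 11 1))
    (cmG2.commute Int.cast_zero (by simp) (by simp) _ _) (cmG2.commute Int.cast_zero (by simp) (by simp) _ _)
    (cmG2.commute Int.cast_zero (by simp) (by simp) _ _) (hx _) (hx _) (hx _) (fun i k l h1 => ?_) ?_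
  · have := wg_inj (C := cG2) (w := [(9, (i : F)), (10, k), (11, l)]) (w' := [(9, 0), (10, 0), (11, 0)])
      rfl cmG2.1 cmG2.2.1 (by simpa [xg_pow, xg_zero] using h1)
    simpa [CharP.cast_eq_zero_iff F p] using this
  · have h1 : ∀ s ∈ [6, 7], ∀ g' ∈ [cG2.xg F 9 1, cG2.xg F 10 1, cG2.xg F 11 1],
        cG2.hg F s (-1) * g' * (cG2.hg F s (-1))⁻¹ = g' ∨
          cG2.hg F s (-1) * g' * (cG2.hg F s (-1))⁻¹ = g'⁻¹ := by
      simp only [List.forall_mem_cons, List.not_mem_nil, IsEmpty.forall_iff, implies_true, and_true]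
      refine ⟨⟨?_, ?_, ?_⟩, ?_, ?_, ?_⟩ <;> exact (hg_neg_one cG2 (by decide) (by decide)).2
    rw [List.forall_mem_cons, List.forall_mem_cons, List.forall_mem_cons]
    exact ⟨⟨_, range_top e _, (hg_neg_one cG2 (s := 7) (by decide) (by decide)).1 (by decide +kernel),
        h1 7 (by simp)⟩,
      ⟨_, range_top e _, (hg_neg_one cG2 (s := 7) (by decide) (by decide)).1 (by decide +kernel),
        h1 7 (by simp)⟩,
      ⟨_, range_top e _, (hg_neg_one cG2 (s := 6) (by decide) (by decide)).1 (by decide +kernel),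
        h1 6 (by simp)⟩,
      by simp⟩

end G2

variable {S : Type*} [Group S] [Finite S]

theorem fat_J3 (h : IsoJ3 S) : Fat S := by
  obtain ⟨F, _, _, ω, hF, hω, ⟨e⟩⟩ := h
  exact Fat.equiv e (fat_J3' (H46.isF4_of_card hF hω))

theorem fat_Ly (h : IsoLy S) : Fat S := by
  obtain ⟨e⟩ := h
  exact Fat.map (e.symm.toMonoidHom.comp H81.Ly.phi) (e.symm.injective.comp H81.Ly.phi_injective) (fat_G2 Nat.prime_five (by norm_num))

end Cfsg.Agent.H70.QS
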