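import Mathlib
import Cfsg.Agent.H70.QTSporW
import Cfsg.Agent.H44.ONM
import Cfsg.Agent.H90.ThO

/-!
`O'N` and `Th` are fat.
-/

set_option autoImplicit false
set_option maxRecDepth 200000

namespace Cfsg.Agent.H70.QS

open Cfsg Subgroup Cfsg.Agent.H81.QT Cfsg.Spor Cfsg.Agent.H44

variable {S : Type*} [Group S] [Finite S]

/-- The letters as words. -/
def idW : List (List ℕ) := [[], [1], [2], [3], [4], [5], [6], [7], [8]]

theorem fat_ON (h : IsoON S) : Fat S := by
  obtain ⟨e⟩ := h
  have := ONM.finite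
  exact Fat.equiv e (fatW' (g := wt ON.gm idW) (x := [5, 6]) (y := [7, 5, 7, 1]) (z := [1, 2]) (u := [1])
    (v := [6]) (ONM.sat_of_tr (by decide) (by decide +kernel))
    (ONM.ne_one_of_tr (q := 50000) (by decide) (by norm_num) (by decide +kernel))
    (ONM.ne_one_of_tr (q := 100) (by decide) (by norm_num) (by decide +kernel))
    (ONM.ne_one_of_tr (q := 100) (by decide) (by norm_num) (by decide +kernel))
    (ONM.ne_one_of_tr (q := 100) (by decide) (by norm_num) (by decide +kernel))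
    (ONM.ne_one_of_tr (q := 100) (by decide) (by norm_num) (by decide +kernel)))

theorem satTh : Sat H90.ThV.gV (rels3 [1, 2] [10, 4, 11, 2, 10, 4, 11, 2] [4, 5] [1] [5]) :=
  H90.F3.sat_of_allL H90.ThV.hn H90.ThV.env (by decide +kernel)

theorem neTh {l : List ℕ} (h1 : lettersIn 11 l = true)
    (h : H90.F3.neB 248 12 H90.ThV.vP H90.ThV.vM l = true) : ev H90.ThP.gm l ≠ 1 := fun e =>
  H90.F3.ne_one_of_neB H90.ThV.hn H90.ThV.env h (by rw [← H90.ThV.π_ev h1, e, map_one])

theorem fat_Th (h : IsoTh S) : Fat S := by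
  obtain ⟨e⟩ := h
  have := Finite.of_equiv _ e.toEquiv
  refine Fat.equiv e (fatW (g := H90.ThP.gm) (x := [1, 2]) (y := [10, 4, 11, 2, 10, 4, 11, 2]) (z := [4, 5])
    (u := [1]) (v := [5]) (fun r hr => ?_) (neTh (by decide) (by decide +kernel))
    (neTh (by decide) (by decide +kernel)) (neTh (by decide) (by decide +kernel)))
  have h1 : (rels3 [1, 2] [10, 4, 11, 2, 10, 4, 11, 2] [4, 5] [1] [5]).all (lettersIn 11) = true := by
    decide +kernel
  exact H90.ThO.eq_of_ev (l' := []) (List.all_eq_true.1 h1 r hr) rfl (satTh r hr)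

end Cfsg.Agent.H70.QS
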