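import Mathlib
import Cfsg.Agent.H70.QTSporW
import Cfsg.Agent.H43.McLM
import Cfsg.Agent.H43.HSM
import Cfsg.Agent.H44.SuzM
import Cfsg.Agent.H44.HeM
import Cfsg.Agent.H48.Order
import Cfsg.Agent.H68.HNF

/-!
`McL, Co₃, Co₂, Co₁, Suz, HN` are fat; `HS, He` have rank two.
-/

set_option autoImplicit false
set_option maxRecDepth 200000

namespace Cfsg.Agent.H70.QS

open Cfsg Subgroup Cfsg.Agent.H81.QT Cfsg.Agent.H44 Cfsg.Agent.H43 Cfsg.Spor

theorem fat_McL_lb : Fat (grp 275 McLM.lb_E) :=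
  fatW (g := gq 275 McLM.lb_E (List.range 22)) (x := [7, 5, 0, 5, 5, 9, 16, 8, 18, 15, 12, 19])
    (y := [13, 0, 14, 17, 4, 17, 8, 10, 16, 14, 12, 18]) (z := [3, 13, 0, 11, 4, 13, 9, 14, 12, 18])
    (u := [10, 5, 11, 9, 17, 12, 19]) (v := [3, 13, 0, 15, 7, 4, 11, 9, 10, 13, 19])
    (sat_gq (k := 9) McLM.hn (by norm_num) McLM.lb_E_ok (by decide +kernel))
    (ne_gq (k := 9) McLM.hn McLM.lb_E_ok (by decide +kernel))
    (ne_gq (k := 9) McLM.hn McLM.lb_E_ok (by decide +kernel))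
    (ne_gq (k := 9) McLM.hn McLM.lb_E_ok (by decide +kernel))

theorem fat_Suz_lb : Fat (grp 1782 SuzM.lb_E) :=
  fatW (g := gq 1782 SuzM.lb_E (List.range 46))
    (x := [24, 20, 16, 12, 21, 34, 14, 34, 20, 24, 27, 28, 35, 40])
    (y := [21, 32, 16, 12, 33, 14, 16, 27, 23, 18, 35, 24, 28, 42])
    (z := [29, 25, 16, 12, 22, 22, 16, 31, 18, 20, 36, 24, 27, 28, 30, 35, 40])
    (u := [28, 20, 2, 12, 23, 24, 17, 23, 19, 23, 25, 26, 28, 34])
    (v := [38, 0, 18, 12, 20, 33, 14, 28, 19, 36, 24, 28, 30, 35, 40, 42])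
    (sat_gq (k := 11) SuzM.m_hn (by norm_num) SuzM.lb_E_ok (by decide +kernel))
    (ne_gq (k := 11) SuzM.m_hn SuzM.lb_E_ok (by decide +kernel))
    (ne_gq (k := 11) SuzM.m_hn SuzM.lb_E_ok (by decide +kernel))
    (ne_gq (k := 11) SuzM.m_hn SuzM.lb_E_ok (by decide +kernel))

theorem rk2_HS_lb : Rk2 (grp 100 HSM.lb_E) :=
  rk2W (g := gq 100 HSM.lb_E (List.range 22)) (x := [9, 3, 5, 5, 5, 15, 8, 8, 12, 17, 18])
    (y := [10, 7, 4, 11, 11, 9, 14, 12, 19]) (v := [5, 0, 5, 5, 19, 8, 8, 14, 12, 12])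
    (sat_gq (k := 7) HSM.hn (by norm_num) HSM.lb_E_ok (by decide +kernel))
    (ne_gq (k := 7) HSM.hn HSM.lb_E_ok (by decide +kernel))
    (ne_gq (k := 7) HSM.hn HSM.lb_E_ok (by decide +kernel))

theorem rk2_He_lb : Rk2 (grp 2058 HeM.lb_E) :=
  rk2W (g := gq 2058 HeM.lb_E (List.range 46))
    (x := [10, 28, 12, 14, 31, 15, 28, 24, 20, 30, 29, 33, 38, 36, 42])
    (y := [14, 31, 4, 2, 30, 26, 14, 33, 20, 29, 30, 33])
    (v := [15, 28, 4, 2, 17, 19, 42, 24, 30, 29, 42, 36])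
    (sat_gq (k := 12) HeM.m_hn (by norm_num) HeM.lb_E_ok (by decide +kernel))
    (ne_gq (k := 12) HeM.m_hn HeM.lb_E_ok (by decide +kernel))
    (ne_gq (k := 12) HeM.m_hn HeM.lb_E_ok (by decide +kernel))

theorem swap2 {a b c d : Fin 12} (h1 : a ≠ b) (h2 : c ≠ d) :
    Equiv.swap a b * Equiv.swap c d ∈ alternatingGroup (Fin 12) := by
  simp [Equiv.Perm.mem_alternatingGroup, h1, h2]

theorem fat_A12 : Fat (alternatingGroup (Fin 12)) :=
  fat_of_inv (p := 3) Nat.prime_three (by norm_num)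
    (x := ⟨Equiv.swap 0 1 * Equiv.swap 1 2, swap2 (by decide) (by decide)⟩) (y := ⟨Equiv.swap 3 4 * Equiv.swap 4 5, swap2 (by decide) (by decide)⟩)
    (z := ⟨Equiv.swap 6 7 * Equiv.swap 7 8, swap2 (by decide) (by decide)⟩) (u := ⟨Equiv.swap 0 1 * Equiv.swap 3 4, swap2 (by decide) (by decide)⟩)
    (v := ⟨Equiv.swap 3 4 * Equiv.swap 6 7, swap2 (by decide) (by decide)⟩)
    (Subtype.ext (by decide +kernel)) (Subtype.ext (by decide +kernel)) (Subtype.ext (by decide +kernel))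
    (Subtype.ext (by decide +kernel)) (Subtype.ext (by decide +kernel)) (Subtype.ext (by decide +kernel))
    (fun h => absurd (congrArg Subtype.val h) (by decide +kernel))
    (fun h => absurd (congrArg Subtype.val h) (by decide +kernel))
    (fun h => absurd (congrArg Subtype.val h) (by decide +kernel))
    (Subtype.ext (by decide +kernel)) (Subtype.ext (by decide +kernel)) (Subtype.ext (by decide +kernel))
    (Subtype.ext (by decide +kernel)) (Subtype.ext (by decide +kernel)) (Subtype.ext (by decide +kernel))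

variable {S : Type*} [Group S] [Finite S]

theorem fat_of_McL (f : McL →* S) (hf : ∀ a, f a = 1 → a * a = 1) : Fat S := by
  have : Finite McL := Finite.of_equiv _ McLM.equiv.symm.toEquiv
  exact Fat.map_two f hf (Fat.equiv McLM.equiv (Fat.map (inclusion McLM.lb_le) (inclusion_injective _)
    fat_McL_lb))

theorem fat_of_le {K : Subgroup (Equiv.Perm leechLattice)} (hK : McL ≤ K) (e : S ≃* K) : Fat S :=
  fat_of_McL (e.symm.toMonoidHom.comp (inclusion hK)) fun a h => by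
    have : a = 1 := (injective_iff_map_eq_one _).1 (inclusion_injective hK) a
      ((injective_iff_map_eq_one _).1 e.symm.injective _ h)
    rw [this, one_mul]

theorem fat_McL (h : IsoMcL S) : Fat S := h.elim (fat_of_le le_rfl)

theorem fat_Co3 (h : IsoCo3 S) : Fat S := h.elim (fat_of_le inf_le_left)

theorem fat_Co2 (h : IsoCo2 S) : Fat S := h.elim (fat_of_le (inf_le_inf_right _ inf_le_left))

theorem fat_Co1 (h : IsoCo1 S) : Fat S := by
  obtain ⟨e⟩ := h
  have hK : McL ≤ Co0 := inf_le_left.trans inf_le_left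
  refine fat_of_McL (e.symm.toMonoidHom.comp ((QuotientGroup.mk' _).comp (inclusion hK))) fun a h => ?_
  have h1 : inclusion hK a ∈ center Co0 :=
    (QuotientGroup.eq_one_iff _).1 ((injective_iff_map_eq_one _).1 e.symm.injective _ h)
  have h2 := pow_card_eq_one' (x := (⟨_, h1⟩ : center Co0))
  rw [H48.card_center, pow_two] at h2
  apply inclusion_injective hK
  rw [map_mul, map_one]
  exact congrArg Subtype.val h2

theorem fat_Suz (h : IsoSuz S) : Fat S := by
  obtain ⟨e⟩ := h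
  have h1 : grp 1782 SuzM.lb_E ≤ SuzM.φ.range := SuzM.range_eq ▸ SuzM.lb_le
  exact Fat.equiv (e.trans (MonoidHom.ofInjective SuzM.inj))
    (Fat.map (inclusion h1) (inclusion_injective _) fat_Suz_lb)

theorem fat_HN (h : IsoHN S) : Fat S := by
  obtain ⟨e⟩ := h
  obtain ⟨f, hf⟩ := H68.HN.exists_A12
  exact Fat.map (e.symm.toMonoidHom.comp f) (e.symm.injective.comp hf) fat_A12

omit [Finite S] in
theorem rk2_HS (h : IsoHS S) : Rk2 S := by
  obtain ⟨e⟩ := h
  exact Rk2.equiv (e.trans HSM.equiv) (Rk2.map (inclusion HSM.lb_le) (inclusion_injective _) rk2_HS_lb)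

omit [Finite S] in
theorem rk2_He (h : IsoHe S) : Rk2 S := by
  obtain ⟨e⟩ := h
  have h1 : grp 2058 HeM.lb_E ≤ HeM.φ.range := HeM.range_eq ▸ HeM.lb_le
  exact Rk2.equiv (e.trans (MonoidHom.ofInjective HeM.inj))
    (Rk2.map (inclusion h1) (inclusion_injective _) rk2_He_lb)

end Cfsg.Agent.H70.QS
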