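import Mathlib
import Cfsg.Agent.H70.QTSporA
import Cfsg.Prelude.Def_Spor_Fi22
import Cfsg.Prelude.Def_Spor_Fi23
import Cfsg.Prelude.Def_Spor_Fi24
import Cfsg.Prelude.Def_Spor_B
import Cfsg.Prelude.Def_Spor_M

/-!
The groups presented on a `Y`-diagram (`Fi₂₂, Fi₂₃, Fi₂₄', B, M`) are fat.
-/

set_option autoImplicit false

namespace Cfsg.Agent.H70.QS

open Cfsg Subgroup Cfsg.Agent.H81.QT Cfsg.Spor

variable {G : Type*} [Group G] {α : Type*} [DecidableEq α]

/-- The Coxeter relations hold for `g`. -/
def CoxRel (edges : List (α × ℕ × α)) (g : α → G) : Prop :=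
  ∀ x ∈ coxNodes edges, ∀ y ∈ coxNodes edges, (g x * g y) ^ coxLabel edges x y = 1

theorem coxRel_of (edges : List (α × ℕ × α)) (extra : List (FreeGroup α)) :
    CoxRel edges (fun x => (PresentedGroup.of x : CoxPresented α edges extra)) := by
  intro x hx y hy
  have : PresentedGroup.mk (coxRelators edges ∪ {r | r ∈ extra})
      ((FreeGroup.of x * FreeGroup.of y) ^ coxLabel edges x y) = 1 :=
    PresentedGroup.one_of_mem (Or.inl ⟨x, hx, y, hy, rfl⟩)
  rw [map_pow, map_mul] at this
  exact this

theorem CoxRel.comp {H : Type*} [Group H] {edges : List (α × ℕ × α)} {g : α → G} (h : CoxRel edges g)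
    (f : G →* H) : CoxRel edges (fun x => f (g x)) := by
  intro x hx y hy
  rw [← map_mul, ← map_pow, h x hx y hy, map_one]

theorem CoxRel.sq {edges : List (α × ℕ × α)} {g : α → G} (h : CoxRel edges g) {x : α}
    (hx : x ∈ coxNodes edges) : g x * g x = 1 := by
  have := h x hx x hx
  simpa [coxLabel] using this

theorem CoxRel.comm {edges : List (α × ℕ × α)} {g : α → G} (h : CoxRel edges g) {x y : α}
    (hx : x ∈ coxNodes edges) (hy : y ∈ coxNodes edges) (hl : coxLabel edges x y = 2) :
    Commute (g x) (g y) := by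
  have h1 := h x hx y hy
  rw [hl, pow_two] at h1
  have a := h.sq hx
  have b := h.sq hy
  show g x * g y = g y * g x
  calc g x * g y = (g x * g y)⁻¹ := (inv_eq_of_mul_eq_one_right h1).symm
    _ = g y * g x := by rw [mul_inv_rev, inv_eq_of_mul_eq_one_right a, inv_eq_of_mul_eq_one_right b]

theorem CoxRel.eq_of {edges : List (α × ℕ × α)} {g : α → G} (h : CoxRel edges g) {x y : α}
    (hx : x ∈ coxNodes edges) (hy : y ∈ coxNodes edges) (hl : coxLabel edges x y = 3)
    (hc : Commute (g x) (g y)) : g x = g y := by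
  have h1 := h x hx y hy
  rw [hl] at h1
  have a := h.sq hx
  have b := h.sq hy
  have h2 : (g x * g y) ^ 2 = 1 := by rw [hc.mul_pow, pow_two, pow_two, a, b, one_mul]
  rw [pow_succ, h2, one_mul] at h1
  rw [← inv_eq_of_mul_eq_one_right h1, inv_eq_of_mul_eq_one_right a]

/-- One step of propagation. -/
def step (edges : List (α × ℕ × α)) (L : List α) : List α :=
  (coxNodes edges).filter fun r => r ∈ L ∨ ((∃ t ∈ L, coxLabel edges r t = 3) ∧ ∃ s ∈ L, coxLabel edges r s = 2)

theorem CoxRel.step {edges : List (α × ℕ × α)} {g : α → G} (h : CoxRel edges g) {L : List α} {c : G}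
    (hL : ∀ r ∈ L, r ∈ coxNodes edges ∧ g r = c) : ∀ r ∈ step edges L, r ∈ coxNodes edges ∧ g r = c := by
  intro r hr
  simp only [QS.step, List.mem_filter, decide_eq_true_eq] at hr
  refine ⟨hr.1, ?_⟩
  rcases hr.2 with h1 | ⟨⟨t, ht, h1⟩, s, hs, h2⟩
  · exact (hL r h1).2
  · have hc := h.comm hr.1 (hL s hs).1 h2
    rw [(hL s hs).2, ← (hL t ht).2] at hc
    rw [h.eq_of hr.1 (hL t ht).1 h1 hc, (hL t ht).2]

/-- The propagation from `s, t` reaches every generator. -/
def Grows (edges : List (α × ℕ × α)) (s t : α) : Prop :=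
  s ∈ coxNodes edges ∧ t ∈ coxNodes edges ∧ ∀ r, r ∈ (step edges)^[12] [s, t]

theorem CoxRel.grow {edges : List (α × ℕ × α)} {g : α → G} (h : CoxRel edges g) {s t : α}
    (hg : Grows edges s t) (e : g s = g t) (r : α) : g r = g t := by
  have : ∀ n, ∀ r ∈ (QS.step edges)^[n] [s, t], r ∈ coxNodes edges ∧ g r = g t := by
    intro n
    induction n with
    | zero => simp [hg.1, hg.2.1, e]
    | succ n ih => rw [Function.iterate_succ_apply']; exact h.step ih
  exact (this 12 r (hg.2.2 r)).2

theorem comm_of_eq {edges : List (α × ℕ × α)} {extra : List (FreeGroup α)} {s t : α}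
    (hg : Grows edges s t) (e : (PresentedGroup.of s : CoxPresented α edges extra) = PresentedGroup.of t) :
    IsMulCommutative (CoxPresented α edges extra) := by
  have h := (coxRel_of edges extra).grow hg e
  have hc := comm_closure (s := Set.range (PresentedGroup.of : α → CoxPresented α edges extra)) (by
    rintro _ ⟨x, rfl⟩ _ ⟨y, rfl⟩
    have h1 := h x
    have h2 := h y
    rw [h1, h2])
  rw [PresentedGroup.closure_range_of] at hc
  exact ⟨⟨fun a b => hc a trivial b trivial⟩⟩

theorem mul_mem_commutator {edges : List (α × ℕ × α)} {g : α → G} (h : CoxRel edges g) {s t : α}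
    (hg : Grows edges s t) (hl : coxLabel edges s t = 3) (hn : ∀ r, r ∈ coxNodes edges) (x y : α) :
    g x * g y ∈ commutator G := by
  have h' := h.comp (Abelianization.of (G := G))
  have e := h'.grow hg (h'.eq_of hg.1 hg.2.1 hl (Commute.all _ _))
  have e1 := e x
  have e2 := e y
  rw [← Abelianization.ker_of, MonoidHom.mem_ker, map_mul, e1, ← e2]
  exact h'.sq (hn y)

theorem conj_a {s t w : G} (hs : s * s = 1) (ht : t * t = 1) (h1 : Commute w s) (h2 : Commute w t) :
    s * w * (s * t) * (s * w)⁻¹ = (s * t)⁻¹ := by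
  have : w * (s * t) * w⁻¹ = s * t := by rw [(h1.mul_right h2).eq]; group
  calc s * w * (s * t) * (s * w)⁻¹ = s * (w * (s * t) * w⁻¹) * s⁻¹ := by group
    _ = s * s * t * s⁻¹ := by rw [this]; group
    _ = (s * t)⁻¹ := by rw [hs, one_mul, mul_inv_rev, inv_eq_of_mul_eq_one_right ht]

theorem conj_b {s t w : G} (hs : s * s = 1) (ht : t * t = 1) (h1 : Commute w s) (h2 : Commute w t) :
    w * s * (s * t) * (w * s)⁻¹ = (s * t)⁻¹ := by
  rw [h1.eq]; exact conj_a hs ht h1 h2

theorem conj_c {x w : G} (h : Commute w x) : w * x * w⁻¹ = x := by rw [h.eq]; group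

/-- Three mutually commuting edges. -/
def Tri (edges : List (α × ℕ × α)) (a b c d e f : α) : Prop :=
  (∀ r, r ∈ coxNodes edges) ∧ coxLabel edges a b = 3 ∧ coxLabel edges c d = 3 ∧ coxLabel edges e f = 3 ∧
    (∀ x ∈ [a, b], ∀ y ∈ [c, d, e, f], coxLabel edges x y = 2) ∧
    (∀ x ∈ [c, d], ∀ y ∈ [e, f], coxLabel edges x y = 2) ∧
    Grows edges a b ∧ Grows edges c d ∧ Grows edges e f

theorem fatY {edges : List (α × ℕ × α)} {extra : List (FreeGroup α)} {a b c d e f : α}
    (hT : Tri edges a b c d e f) (K : Subgroup (CoxPresented α edges extra)) [Finite K]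
    (hK : ¬ IsMulCommutative K)
    (hm : ∀ x ∈ [a, b, c, d, e, f], ∀ y ∈ [a, b, c, d, e, f],
      (PresentedGroup.of x * PresentedGroup.of y : CoxPresented α edges extra) ∈ K) : Fat K := by
  obtain ⟨hn, ab, cd, ef, h1, h2, g1, g2, g3⟩ := hT
  have h := coxRel_of edges extra
  set g : α → CoxPresented α edges extra := fun x => PresentedGroup.of x with hg
  have nt : ∀ s t, Grows edges s t → g s * g t ≠ 1 := by
    intro s t hst e1
    apply hK
    have := comm_of_eq (extra := extra) hst (by
      show g s = g t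
      rw [← inv_eq_of_mul_eq_one_right e1, inv_eq_of_mul_eq_one_right (h.sq (hn s))])
    infer_instance
  have c1 : ∀ x ∈ [a, b], ∀ y ∈ [c, d, e, f], Commute (g x) (g y) :=
    fun x hx y hy => h.comm (hn x) (hn y) (h1 x hx y hy)
  have c2 : ∀ x ∈ [c, d], ∀ y ∈ [e, f], Commute (g x) (g y) :=
    fun x hx y hy => h.comm (hn x) (hn y) (h2 x hx y hy)
  simp only [List.mem_cons, List.not_mem_nil, or_false, forall_eq_or_imp, forall_eq] at c1 c2
  obtain ⟨⟨ac, ad, ae, af⟩, bc, bd, be, bf⟩ := c1
  obtain ⟨⟨ce, cf⟩, de, df⟩ := c2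
  have sq := fun x => h.sq (hn x)
  have cube : ∀ s t, coxLabel edges s t = 3 → (g s * g t) ^ 3 = 1 := by
    intro s t hl
    have := h s (hn s) t (hn t)
    rwa [hl] at this
  refine fat_of_inv (p := 3) Nat.prime_three (by norm_num) (x := ⟨g a * g b, hm a (by simp) b (by simp)⟩)
    (y := ⟨g c * g d, hm c (by simp) d (by simp)⟩) (z := ⟨g e * g f, hm e (by simp) f (by simp)⟩)
    (u := ⟨g a * g c, hm a (by simp) c (by simp)⟩) (v := ⟨g c * g e, hm c (by simp) e (by simp)⟩)
    (Subtype.ext (cube a b ab)) (Subtype.ext (cube c d cd)) (Subtype.ext (cube e f ef))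
    (Subtype.ext ((ac.mul_right ad).mul_left (bc.mul_right bd)).eq)
    (Subtype.ext ((ae.mul_right af).mul_left (be.mul_right bf)).eq)
    (Subtype.ext ((ce.mul_right cf).mul_left (de.mul_right df)).eq)
    (fun h => nt a b g1 (congrArg Subtype.val h)) (fun h => nt c d g2 (congrArg Subtype.val h))
    (fun h => nt e f g3 (congrArg Subtype.val h))
    (Subtype.ext (conj_a (sq a) (sq b) ac.symm bc.symm)) (Subtype.ext (conj_b (sq c) (sq d) ac ad))
    (Subtype.ext (conj_c ((ae.mul_right af).mul_left (ce.mul_right cf))))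
    (Subtype.ext (conj_c ((ac.symm.mul_right bc.symm).mul_left (ae.symm.mul_right be.symm))))
    (Subtype.ext (conj_a (sq c) (sq d) ce.symm de.symm)) (Subtype.ext (conj_b (sq e) (sq f) ce cf))

theorem ncomm_equiv {S H : Type*} [Group S] [Group H] (e : S ≃* H) (h : ¬ IsMulCommutative S) :
    ¬ IsMulCommutative H := fun _ => h ⟨⟨fun a b => e.injective (by rw [map_mul, map_mul, mul_comm'])⟩⟩

theorem fatY_top {edges : List (α × ℕ × α)} {extra : List (FreeGroup α)} {a b c d e f : α}
    (hT : Tri edges a b c d e f) {S : Type*} [Group S] [Finite S] (hS : ¬ IsMulCommutative S)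
    (φ : S ≃* CoxPresented α edges extra) : Fat S := by
  have ψ := φ.trans (topEquiv (G := CoxPresented α edges extra)).symm
  have := Finite.of_equiv _ ψ.toEquiv
  exact Fat.equiv ψ (fatY hT ⊤ (ncomm_equiv ψ hS) (fun _ _ _ _ => trivial))

theorem tri22 : Tri Fi22.edges .a .b .f .g .h .i := by
  refine ⟨fun r => by cases r <;> decide, by decide, by decide, by decide, by decide, by decide,
    ⟨by decide, by decide, fun r => by cases r <;> decide +kernel⟩,
    ⟨by decide, by decide, fun r => by cases r <;> decide +kernel⟩,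
    ⟨by decide, by decide, fun r => by cases r <;> decide +kernel⟩⟩

theorem tri23 : Tri Fi23.edges .a .b .f .g .h .i := by
  refine ⟨fun r => by cases r <;> decide, by decide, by decide, by decide, by decide, by decide,
    ⟨by decide, by decide, fun r => by cases r <;> decide +kernel⟩,
    ⟨by decide, by decide, fun r => by cases r <;> decide +kernel⟩,
    ⟨by decide, by decide, fun r => by cases r <;> decide +kernel⟩⟩

theorem tri24 : Tri Fi24.edges .a .b .f .g .h .i := by
  refine ⟨fun r => by cases r <;> decide, by decide, by decide, by decide, by decide, by decide,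
    ⟨by decide, by decide, fun r => by cases r <;> decide +kernel⟩,
    ⟨by decide, by decide, fun r => by cases r <;> decide +kernel⟩,
    ⟨by decide, by decide, fun r => by cases r <;> decide +kernel⟩⟩

theorem triB : Tri BabyMonster.edges .t1 .t2 .t7 .t8 .t10 .t11 := by
  refine ⟨fun r => by cases r <;> decide, by decide, by decide, by decide, by decide, by decide,
    ⟨by decide, by decide, fun r => by cases r <;> decide +kernel⟩,
    ⟨by decide, by decide, fun r => by cases r <;> decide +kernel⟩,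
    ⟨by decide, by decide, fun r => by cases r <;> decide +kernel⟩⟩

theorem triM : Tri Bimonster.edges .c1 .d1 .c2 .d2 .c3 .d3 := by
  refine ⟨fun r => by cases r <;> decide, by decide, by decide, by decide, by decide, by decide,
    ⟨by decide, by decide, fun r => by cases r <;> decide +kernel⟩,
    ⟨by decide, by decide, fun r => by cases r <;> decide +kernel⟩,
    ⟨by decide, by decide, fun r => by cases r <;> decide +kernel⟩⟩

variable {S : Type*} [Group S] [Finite S]

theorem fat_Fi22 (hS : ¬ IsMulCommutative S) (h : IsoFi22 S) : Fat S := h.elim (fatY_top tri22 hS)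

theorem fat_Fi23 (hS : ¬ IsMulCommutative S) (h : IsoFi23 S) : Fat S := h.elim (fatY_top tri23 hS)

theorem fat_B (hS : ¬ IsMulCommutative S) (h : IsoB S) : Fat S := h.elim (fatY_top triB hS)

theorem fat_Fi24 (hS : ¬ IsMulCommutative S) (h : IsoFi24' S) : Fat S := by
  obtain ⟨φ⟩ := h
  have := Finite.of_equiv _ φ.toEquiv
  exact Fat.equiv φ (fatY tri24 _ (ncomm_equiv φ hS) (fun x _ y _ =>
    mul_mem_commutator (coxRel_of Fi24.edges Fi24.extra) tri24.2.2.2.2.2.2.1 tri24.2.1 tri24.1 x y))

theorem fat_M (hS : ¬ IsMulCommutative S) (h : IsoM S) : Fat S := by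
  obtain ⟨φ⟩ := h
  have := Finite.of_equiv _ φ.toEquiv
  refine Fat.equiv φ (fatY triM _ (ncomm_equiv φ hS) (fun x hx y hy => ⟨?_,
    mul_mem_commutator (coxRel_of Bimonster.edges Bimonster.extra) triM.2.2.2.2.2.2.1 triM.2.1 triM.1 x y⟩))
  have hc : ∀ x ∈ [Bimonster.Gen.c1, .d1, .c2, .d2, .c3, .d3], coxLabel Bimonster.edges x .a = 2 := by decide
  have h := coxRel_of Bimonster.edges Bimonster.extra
  exact mem_centralizer_singleton_iff.2
    ((h.comm (triM.1 x) (triM.1 _) (hc x hx)).mul_left (h.comm (triM.1 y) (triM.1 _) (hc y hy))).eq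

end Cfsg.Agent.H70.QS
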