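import Mathlib
import Cfsg.Agent.H70.QTSporY
import Cfsg.Agent.H70.QTSporP
import Cfsg.Agent.H70.QTSporO
import Cfsg.Agent.H70.QTSporJ
import Cfsg.Prelude.Def_Classification2

/-!
The sporadic groups are on the quasithin list or fat.
-/

set_option autoImplicit false

namespace Cfsg.Agent.H70.QS

open Cfsg Cfsg.Agent.H81.QT

universe u

theorem onList_of_spor {S : Type*} [Group S] (h : IsSporS S) : OnList S :=
  .inr (.inr (.inr (.inr (.inr (.inr (.inr (.inr h)))))))

theorem list_spor : ListFor.{u} (fun S _ => IsSporadicGroup S) := by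
  intro S _ _ _ hS h
  rcases h with h | h | h | h | h | h | h | h | h | h | h | h | h | h | h | h | h | h | h | h | h | h | h |
    h | h | h
  exacts [.inl (onList_of_spor (by unfold IsSporS; tauto)), .inl (onList_of_spor (by unfold IsSporS; tauto)),
    .inl (onList_of_spor (by unfold IsSporS; tauto)), .inl (onList_of_spor (by unfold IsSporS; tauto)),
    .inl (onList_of_spor (by unfold IsSporS; tauto)), .inl (onList_of_spor (by unfold IsSporS; tauto)),
    .inl (onList_of_spor (by unfold IsSporS; tauto)), .inr (fat_J3 h),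
    .inl (onList_of_spor (by unfold IsSporS; tauto)), .inr (fat_Co1 h), .inr (fat_Co2 h), .inr (fat_Co3 h),
    .inr (fat_McL h), .inl (onList_of_spor (by unfold IsSporS; tauto)), .inr (fat_Suz h),
    .inl (onList_of_spor (by unfold IsSporS; tauto)), .inl (onList_of_spor (by unfold IsSporS; tauto)),
    .inr (fat_ON h), .inr (fat_Ly h), .inr (fat_Fi22 hS h), .inr (fat_Fi23 hS h), .inr (fat_Fi24 hS h),
    .inr (fat_HN h), .inr (fat_Th h), .inr (fat_B hS h), .inr (fat_M hS h)]

end Cfsg.Agent.H70.QS
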