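import Cfsg.Agent.H18.RfSc
import Cfsg.Agent.H29.RfWcg

/-! Project RF, piece OFFG. -/

set_option autoImplicit false

namespace Cfsg.Agent.H70.RfOffG

open Cfsg Subgroup Cfsg.Agent.H18.MaxOff Cfsg.Agent.H18.Rf Cfsg.Agent.H29.RfWcg
open Cfsg.Agent.H48 (IsWord)
open Cfsg.Agent.H42 hiding cj mem_cj card_cj
open scoped symmDiff Pointwise

universe u

theorem sq_le {G : Type u} [Group G] [Finite G] {V X Y : Subgroup G} (el : ∀ v ∈ V, v * v = 1)
    (h : Off V X Y) : Nat.card V ≤ Nat.card X * Nat.card X := by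
  obtain ⟨y, hy, hyV⟩ := SetLike.not_le_iff_exists.1 h.ny
  have hn : ∀ v ∈ V, y * v * y⁻¹ ∈ V := fun v hv => (mem_normalizer_iff.1 (h.yn hy) v).1 hv
  let φ : V →* G := MonoidHom.mk' (fun t => t * y * (t : G)⁻¹ * y⁻¹) (by
    rintro ⟨s, hs⟩ ⟨t, ht⟩
    have e1 := comm_sq el (mul_mem ht (hn _ (inv_mem ht))) (hn _ (inv_mem hs))
    show s * t * y * (s * t)⁻¹ * y⁻¹ = s * y * s⁻¹ * y⁻¹ * (t * y * t⁻¹ * y⁻¹)
    calc s * t * y * (s * t)⁻¹ * y⁻¹ = s * (t * (y * t⁻¹ * y⁻¹) * (y * s⁻¹ * y⁻¹)) := by group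
      _ = s * (y * s⁻¹ * y⁻¹ * (t * (y * t⁻¹ * y⁻¹))) := by rw [e1]
      _ = _ := by group)
  have h1 := φ.ker.card_mul_index
  rw [index_ker] at h1
  have h2 : Nat.card φ.range ≤ Nat.card X := card_le_of_le (by
    rintro _ ⟨t, rfl⟩
    exact h.all t t.2 y hy)
  have h3 : Nat.card φ.ker ≤ Nat.card X := by
    rw [← card_map_of_injective V.subtype_injective]
    refine card_le_of_le ?_
    rintro _ ⟨t, ht, rfl⟩
    by_contra hX
    have e : (t : G) * y * (t : G)⁻¹ * y⁻¹ = 1 := ht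
    exact hyV (h.inj t t.2 hX y hy (e ▸ one_mem Y))
  rw [← h1]
  exact Nat.mul_le_mul h3 h2

theorem offG (nd : NdStmt.{u}) : OffGStmt.{u} := by
  intro G _ _ V ρ ψ hS hG X Y h
  classical
  have hcomp : ∀ c, IsWord c → ψ cᶜ = ψ c := fun c hc => by
    have := hG.add c Finset.univ hc H48.isWord_univ
    rw [(hG.ker _ H48.isWord_univ).2 (Or.inr rfl), mul_one] at this
    rw [← this]
    congr 1
    ext p
    simp [Finset.mem_symmDiff]
  have hD : ∃ d ∈ Y, d ∈ V ∧ d ≠ 1 := by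
    by_contra hD
    push Not at hD
    let f : Y →* M24 := ρ.comp (inclusion h.yn)
    have finj : Function.Injective f := by
      rw [injective_iff_map_eq_one]
      intro x hx
      exact Subtype.ext (hD x x.2 ((hS.ker ⟨x, h.yn x.2⟩).1 hx))
    have hb : f.range ≠ ⊥ := fun hb => h.ny fun x hx =>
      (hS.ker ⟨x, h.yn hx⟩).1 (mem_bot.1 (hb.le ⟨⟨x, hx⟩, rfl⟩))
    have h4 := no_off (Y := f.range) (by
      rintro _ ⟨x, rfl⟩
      rw [← map_mul, show x * x = 1 from Subtype.ext (h.ye x x.2), map_one]) hb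
      (Finset.univ.filter fun c => IsWord c ∧ ψ c ∈ X)
      (fun c hc => (Finset.mem_filter.1 hc).2.1) (by
        rintro _ ⟨x, rfl⟩ c hc
        obtain ⟨hc, h4⟩ := (Finset.mem_filter.1 hc).2
        have h5 := hG.act ⟨x, h.yn x.2⟩ c hc
        have hw : IsWord (f x • c) := (msmul_mem_codeSets_iff (f x)).2 hc
        have h6 : ψ (f x • c) = ψ c := by
          refine h5.symm.trans ?_
          have hV := hG.mem c hc
          have e := hD _ ((h.xc _ hV).1 h4 x x.2) (by
            have := mul_mem hV ((mem_normalizer_iff.1 (h.yn x.2) _).1 (inv_mem hV))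
            simpa [mul_assoc] using this)
          show (x : G) * ψ c * (x : G)⁻¹ = ψ c
          calc (x : G) * ψ c * (x : G)⁻¹ = (ψ c * x * (ψ c)⁻¹ * (x : G)⁻¹) * (x * ψ c * (x : G)⁻¹) := by
                rw [e, one_mul]
            _ = ψ c := by group
        have h7 := hG.add _ _ hw hc
        rw [h6, hS.el _ (hG.mem c hc), hG.ker _ (hw.symmDiff hc)] at h7
        rcases h7 with e | e
        · exact Or.inl (symmDiff_eq_bot.1 e)
        · right
          rw [← symmDiff_symmDiff_cancel_right c (f x • c), e]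
          ext p
          simp [Finset.mem_symmDiff])
    have h5 : Nat.card f.range = Nat.card X := by
      rw [h.card]
      exact (Nat.card_congr (MonoidHom.ofInjective finj).toEquiv).symm
    have h6 : ∀ x : X, ∃ c, IsWord c ∧ ψ c = x.1 := fun x => hG.sur _ (h.xa x.2)
    choose w hw hw' using h6
    let F : X × Bool → (Finset.univ.filter fun c => IsWord c ∧ ψ c ∈ X) := fun x =>
      if x.2 then ⟨w x.1, Finset.mem_filter.2 ⟨Finset.mem_univ _, hw _, hw' _ ▸ x.1.2⟩⟩
      else ⟨(w x.1)ᶜ, Finset.mem_filter.2 ⟨Finset.mem_univ _, (hw _).compl,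
        by rw [hcomp _ (hw _), hw']; exact x.1.2⟩⟩
    have hF : ∀ x, ψ (F x).1 = x.1.1 := by
      rintro ⟨x, _ | _⟩
      · exact (hcomp _ (hw x)).trans (hw' x)
      · exact hw' x
    have hne : ∀ c : Finset GolayPt, c ≠ cᶜ := fun c e => by
      have : pt 0 ∈ c ↔ pt 0 ∈ cᶜ := by rw [← e]
      rw [Finset.mem_compl] at this
      tauto
    have h7 := Nat.card_le_card_of_injective F fun x y e => by
      have e1 : x.1 = y.1 := Subtype.ext ((hF x).symm.trans (e ▸ hF y))
      obtain ⟨x, b⟩ := x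
      obtain ⟨y, b'⟩ := y
      obtain rfl : x = y := e1
      have e2 := congrArg Subtype.val e
      cases b <;> cases b'
      · rfl
      · exact absurd e2.symm (hne _)
      · exact absurd e2 (hne _)
      · rfl
    rw [Nat.card_eq_finsetCard, Nat.card_prod, Nat.card_eq_fintype_card (α := Bool),
      Fintype.card_bool] at h7
    have h8 := Nat.mul_le_mul_right (Nat.card X) h7
    have h9 := sq_le hS.el h
    rw [h5] at h4
    rw [hS.card] at h9
    rw [mul_right_comm] at h8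
    omega
  obtain ⟨d, hdY, hdV, hd1⟩ := hD
  obtain ⟨c, hc, rfl⟩ := hG.sur d hdV
  rcases hc.card_cases with e | e | e | e | e
  · exact absurd ((hG.ker c hc).2 (Or.inl (Finset.card_eq_zero.1 e))) hd1
  · exact ⟨c, ⟨hc, e⟩, hdY⟩
  · exact absurd hdY (nd G V ρ ψ hS hG X Y h c ⟨hc, e⟩)
  · refine ⟨cᶜ, ⟨hc.compl, ?_⟩, by rw [hcomp c hc]; exact hdY⟩
    rw [Finset.card_compl, card_pt, e]
  · exact absurd ((hG.ker c hc).2 (Or.inr (Finset.eq_univ_of_card c (by rw [card_pt, e])))) hd1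

end Cfsg.Agent.H70.RfOffG
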