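import Cfsg.Agent.H35.RfQ
import Cfsg.Agent.H23.RfWcT

/-! Project RF, piece VAT. -/

set_option autoImplicit false
set_option maxRecDepth 100000

namespace Cfsg.Agent.H70.RfVaT

open Cfsg Subgroup Cfsg.Agent.H42 Cfsg.Agent.H18.Rf Cfsg.Agent.H35.RF
open Cfsg.Agent.H48 (IsWord)
open Cfsg.Agent.H83.J4 (rp cw cw_lt lab_aux)
open Cfsg.Agent.H23.RfWcT (psi_cw ev_rp)
open Cfsg.Agent.H18.MaxOff (mem_norm_of_le)
open scoped commutatorElement Pointwise symmDiff

universe u

/-- same parity on all tetrads -/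
def Par (c : Finset GolayPt) : Prop :=
  ∀ t ∈ famDec 6 sext0, ∀ t' ∈ famDec 6 sext0, (c ∩ t).card % 2 = (c ∩ t').card % 2

noncomputable def prt (n : ℕ) : Bool :=
  allB (fun i => Nat.beq (pc (Nat.land n (fld 24 sext0 i)) % 2) (pc (Nat.land n (fld 24 sext0 0)) % 2)) 6

theorem prt_iff {n : ℕ} (hn : n < 2 ^ 24) : prt n = true ↔ Par (toSet n) := by
  rw [prt, allB_iff, Par, forall_famDec]
  simp only [forall_famDec, beq_iff, card_toSet_inter _ hn]
  exact ⟨fun h i hi j hj => (h i hi).trans (h j hj).symm, fun h i hi => h i hi 0 (by norm_num)⟩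

theorem chk1 : allB (fun j => Bool.or (!prt (rp j)) (Nat.ble j 127)) 2048 = true := by decide +kernel

theorem chk2 : orbAll (actsOf pmul gF) pid 100 (fun y => Bool.and (Nat.beq (pmul y y) pid)
    (Bool.and (allB (fun i => Nat.beq (img y (fld 24 sext0 i)) (fld 24 sext0 i)) 6)
      (allB (fun j => force (rp j) fun n => force (Nat.xor (img y n) n) fun d =>
        Bool.or (isCode d) (isCode (Nat.xor d 8388615))) 128))) = true := by decide +kernel

theorem inM_gF : ∀ g ∈ gF, inM g = true := allL_iff.1 (by decide +kernel)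

noncomputable def wd (l : List ℕ) : ℕ := l.foldr pmul pid

theorem wd_mem (l : List ℕ) (h : ∀ x ∈ l, x ∈ gF) : inM (wd l) = true ∧ toM (wd l) ∈ gen gF := by
  induction l with
  | nil => exact ⟨inM_pid, by rw [show wd [] = pid from rfl, toM_pid]; exact one_mem _⟩
  | cons a l ih =>
    have h1 := h a (List.mem_cons_self ..)
    have h2 := ih fun x hx => h x (List.mem_cons_of_mem _ hx)
    have e : wd (a :: l) = pmul a (wd l) := List.foldr_cons ..
    rw [e, toM_pmul (inM_gF a h1) h2.1]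
    exact ⟨inM_pmul (inM_gF a h1) h2.1, mul_mem (toM_mem_gen h1) h2.2⟩

theorem chk3 : allL (fun g => allL (fun f => force (pconj g f) fun x =>
    anyL (fun l => Nat.beq (wd l) x) gF.sublists) gF) gensS = true := by decide +kernel

theorem nF : GS ≤ normalizer (gen gF : Set M24) := by
  rw [GS_eq]
  refine gen_le _ fun g hg => mem_norm_of_le fun a ha => ?_
  have : gen gF ≤ (gen gF).comap (MulAut.conj (toM g)).toMonoidHom := gen_le _ fun f hf => by
    have k := allL_iff.1 (allL_iff.1 chk3 g hg) f hf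
    rw [force_eq] at k
    obtain ⟨l, hl, e⟩ := anyL_iff.1 k
    have h2 := (wd_mem l fun x hx => (List.mem_sublists.1 hl).subset hx).2
    rw [beq_iff.1 e, toM_pconj (inM_gensS g hg) (inM_gF f hf)] at h2
    exact h2
  exact this ha

theorem factF {x : M24} (hx : x ∈ gen gF) : x * x = 1 ∧ (∀ t ∈ famDec 6 sext0, x • t = t) ∧
    ∀ j < 128, IsWord ((x • toSet (rp j)) ∆ toSet (rp j)) ∨
      IsWord (((x • toSet (rp j)) ∆ toSet (rp j)) ∆ t0) := by
  obtain ⟨y, hy, rfl, h⟩ := forall_gen inM_gF chk2 hx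
  simp only [Bool.and_eq_true, allB_iff, force_eq, Bool.or_eq_true, beq_iff] at h
  refine ⟨by rw [← toM_pmul hy hy, h.1, toM_pid], forall_famDec.2 fun i hi => ?_, fun j hj => ?_⟩
  · rw [toM_smul_toSet hy, h.2.1 i hi]
  · rw [toM_smul_toSet hy, ← toSet_xor, t0, ← toSet_xor]
    exact (h.2.2 j hj).imp toSet_mem_codeSets toSet_mem_codeSets

theorem F_le : gen gF ≤ GS := fun x hx => by
  rw [MulAction.mem_stabilizer_iff]
  ext t
  constructor
  · intro ht
    obtain ⟨s, hs, rfl⟩ := Finset.mem_smul_finset.1 ht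
    rwa [(factF hx).2.1 s hs]
  · intro ht
    exact Finset.mem_smul_finset.2 ⟨t, ht, (factF hx).2.1 t ht⟩

theorem Par.even {c : Finset GolayPt} (h : Par c) : Even c.card := by
  classical
  have e : c = (famDec 6 sext0).biUnion fun t => c ∩ t := by
    ext p
    simp only [Finset.mem_biUnion, Finset.mem_inter]
    exact ⟨fun hp => (sextet_cover sext0_mem p).imp fun t ht => ⟨ht.1, hp, ht.2⟩,
      fun ⟨_, _, hp, _⟩ => hp⟩
  have e2 : c.card = ∑ t ∈ famDec 6 sext0, (c ∩ t).card := by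
    conv_lhs => rw [e]
    exact Finset.card_biUnion fun t ht s hs hne =>
      (sextet_disjoint sext0_mem ht hs hne).mono Finset.inter_subset_right Finset.inter_subset_right
  have h0 : toSet (fld 24 sext0 0) ∈ famDec 6 sext0 := mem_famDec.2 ⟨0, by norm_num, rfl⟩
  rw [Nat.even_iff, e2, Finset.sum_nat_mod, Finset.sum_congr rfl fun t ht => h t ht _ h0,
    Finset.sum_const, sext0_mem.1, smul_eq_mul]
  omega

theorem Par.smul {c : Finset GolayPt} (h : Par c) {g : M24} (hg : g ∈ GS) : Par (g • c) := by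
  have k : ∀ t ∈ famDec 6 sext0, ∃ s ∈ famDec 6 sext0, (g • c ∩ t).card = (c ∩ s).card := by
    intro t ht
    rw [← MulAction.mem_stabilizer_iff.1 hg] at ht
    obtain ⟨s, hs, rfl⟩ := Finset.mem_smul_finset.1 ht
    exact ⟨s, hs, by rw [← Finset.smul_finset_inter, Finset.card_smul_finset]⟩
  intro t ht t' ht'
  obtain ⟨s, hs, e⟩ := k t ht
  obtain ⟨s', hs', e'⟩ := k t' ht'
  rw [e, e']
  exact h s hs s' hs'

theorem par_comm {x : M24} (hx : x ∈ gen gF) (c : Finset GolayPt) : Par ((x • c) ∆ c) := by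
  have k : ∀ t ∈ famDec 6 sext0, (((x • c) ∆ c) ∩ t).card % 2 = 0 := by
    intro t ht
    have e1 : ((x • c) ∆ c) ∩ t = (x • c ∩ t) ∆ (c ∩ t) := inf_symmDiff_distrib_right _ _ _
    have e2 := card_symmDiff_add (x • c ∩ t) (c ∩ t)
    have e3 : (x • c ∩ t).card = (c ∩ t).card := by
      conv_lhs => rw [← (factF hx).2.1 t ht, ← Finset.smul_finset_inter, Finset.card_smul_finset]
    rw [e1]
    omega
  exact fun t ht t' ht' => (k t ht).trans (k t' ht').symm

theorem card_t0 : t0.card = 4 := (card_toSet (by norm_num)).trans (by decide +kernel)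

theorem vaT (kit : KitTStmt.{u}) : VaTStmt.{u} := by
  intro G _ _ V ρ ψ ω hz
  have S := hz.st
  have T := hz.tod
  obtain ⟨kM, kW, kz, kc, -, -⟩ := kit G V ρ ψ S T
  have ev0 : Even t0.card := by rw [card_t0]; decide
  have WV : WT ψ ≤ V := (closure_le _).2 (by
    rintro _ ⟨c, hc, rfl⟩
    exact T.mem c (Par.even hc))
  have exW : ∀ w ∈ WT ψ, ∃ j < 128, ψ (toSet (rp j)) = w := by
    intro w hw
    obtain ⟨c, hc, rfl⟩ := T.sur w (WV hw)
    have e := psi_cw S T (mask_lt c) (by rwa [toSet_mask])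
    rw [toSet_mask] at e
    have l := cw_lt (mask_lt c)
    refine ⟨_, ?_, e.symm⟩
    have k := of_allB chk1 l
    rw [(prt_iff (lab_aux l).2.2.1).2 ((kW _ (ev_rp l)).1 (e ▸ hw))] at k
    have := ble_iff.1 (by simpa using k)
    omega
  have cm : ∀ (n : NN V) (c : Finset GolayPt), Even c.card → ⁅(n : G), ψ c⁆ = ψ ((ρ n • c) ∆ c) := by
    intro n c hc
    rw [commutatorElement_def, T.act n c hc, inv_eq_of_mul_eq_one_right (S.el _ (T.mem c hc)),
      T.add _ _ (by rwa [Finset.card_smul_finset]) hc]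
  refine ⟨S.el, S.cen, S.card, fun e => ?_, ?_, WV, fun v hv => ?_, ?_, fun m hm => ?_, fun m hm => ?_,
    fun r hr => ?_, fun r hr v hv => ?_, fun r hr w hw => ?_, ⟨135, by decide, ?_⟩,
    ⟨239085, by decide, ?_⟩, ?_, fun h => ?_⟩
  · have := ((T.ker _ ev0).1 e).card_cases
    rw [card_t0] at this
    omega
  · exact subset_closure ⟨t0, (prt_iff (by norm_num)).1 (by decide +kernel), rfl⟩
  · exact mem_pre.2 ⟨le_normalizer hv, by
      rw [(S.ker ⟨v, le_normalizer hv⟩).2 hv]; exact one_mem _⟩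
  · rw [kM]
    intro r hr
    obtain ⟨h, hr⟩ := mem_pre.1 hr
    exact mem_pre.2 ⟨h, F_le hr⟩
  · rw [kM] at hm
    obtain ⟨h, hm⟩ := mem_pre.1 hm
    refine mem_norm_of_le fun w hw => ?_
    obtain ⟨c, hc, rfl⟩ := T.sur w (WV hw)
    rw [show m * ψ c * m⁻¹ = _ from T.act ⟨m, h⟩ c hc]
    exact subset_closure ⟨_, Par.smul ((kW c hc).1 hw) hm, rfl⟩
  · rw [kM] at hm
    obtain ⟨h, hm⟩ := mem_pre.1 hm
    refine mem_norm_of_le fun r hr => ?_
    obtain ⟨h', hr⟩ := mem_pre.1 hr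
    have := (mem_normalizer_iff.1 (nF hm) _).1 hr
    rw [← map_inv, ← map_mul, ← map_mul] at this
    exact coe_mem_pre.2 this
  · obtain ⟨h, hr⟩ := mem_pre.1 hr
    have := (factF hr).1
    rw [← map_mul] at this
    exact (S.ker _).1 this
  · obtain ⟨h, hr⟩ := mem_pre.1 hr
    obtain ⟨c, hc, rfl⟩ := T.sur v hv
    rw [show ⁅r, ψ c⁆ = _ from cm ⟨r, h⟩ c hc]
    exact subset_closure ⟨_, par_comm hr c, rfl⟩
  · obtain ⟨h, hr⟩ := mem_pre.1 hr
    obtain ⟨j, hj, rfl⟩ := exW w hw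
    rw [show ⁅r, ψ (toSet (rp j))⁆ = _ from cm ⟨r, h⟩ _ (ev_rp (by omega))]
    exact (kz _ (par_comm hr _).even).2 ((factF hr).2.2 j hj)
  · rw [kM, kc, card_stab_sextet sext0_mem]
    norm_num
  · have e : pre V ρ ⊤ = NN V := by
      ext g
      rw [mem_pre]
      exact ⟨fun ⟨h, _⟩ => h, fun h => ⟨h, mem_top _⟩⟩
    rw [← e, kc, card_top, card_M24]
    norm_num
  · have h1 : (WT ψ : Set G) ⊆ (fun j => ψ (toSet (rp j))) '' (Finset.range 128 : Set ℕ) := by
      intro w hw
      obtain ⟨j, hj, e⟩ := exW w hw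
      exact ⟨j, Finset.mem_coe.2 (Finset.mem_range.2 hj), e⟩
    have h2 := (Set.ncard_le_ncard h1 (Set.toFinite _)).trans (Set.ncard_image_le (Set.toFinite _))
    rw [Set.ncard_coe_finset, Finset.card_range] at h2
    have h3 : Nat.card (WT ψ) ≤ 128 := le_trans (le_of_eq (Nat.card_coe_set_eq (WT ψ : Set G))) h2
    rw [S.card]
    omega
  · have p3 : Par (toSet 3) := (prt_iff (by norm_num)).1 (by decide +kernel)
    rcases (kz _ p3.even).1 (h (subset_closure ⟨_, p3, rfl⟩)) with e | e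
    · exact absurd ((toSet_mem_codeSets_iff (by norm_num)).1 e) (by decide +kernel)
    · rw [t0, ← toSet_xor] at e
      exact absurd ((toSet_mem_codeSets_iff (by decide +kernel)).1 e) (by decide +kernel)

end Cfsg.Agent.H70.RfVaT
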